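import Cfsg.Agent.ZJFailure.Faithful
import Cfsg.Agent.ConjFunctor.SylowIn

/-!
The linear core: inside a group with a strongly embedded subgroup for a set of quadratic elements, an element
normalizing a `p`-subgroup and acting on a two-dimensional factor as a generator of the torus of `SL(2, p)`.
-/

set_option autoImplicit false

namespace CfsgLib.ZJFailure

open Matrix
open CfsgLib.QdSection
open CfsgLib.ConjFunctor
open CfsgLib.GlaubermanZJ (mem_of_closure_pair pow_p_eq_one)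

variable {p : ℕ} [hpf : Fact p.Prime]

/-- The upper unipotent subgroup of `SL(2, p)`. -/
def Uni (p : ℕ) [Fact p.Prime] : Subgroup (SpecialLinearGroup (Fin 2) (ZMod p)) :=
  (MonoidHom.mk (OneHom.mk (fun c : Multiplicative (ZMod p) => upT c.toAdd) upT_zero)
    (fun c d => (upT_mul c.toAdd d.toAdd).symm)).range

theorem mem_Uni {g : SpecialLinearGroup (Fin 2) (ZMod p)} : g ∈ Uni p ↔ ∃ c, g = upT c :=
  ⟨fun ⟨c, hc⟩ => ⟨c.toAdd, hc.symm⟩, fun ⟨c, hc⟩ => ⟨Multiplicative.ofAdd c, hc.symm⟩⟩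

theorem dgT_conj_upT (t : (ZMod p)ˣ) (c : ZMod p) :
    dgT t * upT c = upT ((t : ZMod p) * (t : ZMod p) * c) * dgT t := by
  apply Subtype.ext
  show (dgT t).1 * (upT c).1 = (upT _).1 * (dgT t).1
  ext i j
  fin_cases i <;> fin_cases j <;>
    simp [dgT, upT, Matrix.mul_apply, Fin.sum_univ_two, -Units.val_inv_eq_inv_val]
  calc (t : ZMod p) * c = (t : ZMod p) * c * ((t : ZMod p) * ((t⁻¹ : (ZMod p)ˣ) : ZMod p)) := by
        rw [← Units.val_mul, mul_inv_cancel, Units.val_one, mul_one]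
    _ = _ := by ring

theorem dgT_mem_normalizer (t : (ZMod p)ˣ) :
    dgT t ∈ Subgroup.normalizer (Uni p : Set (SpecialLinearGroup (Fin 2) (ZMod p))) := by
  rw [mem_normalizer_iff_conjOf]
  refine Subgroup.eq_of_le_of_card_ge (conjOf_le_iff.mpr fun g hg => ?_) (card_conjOf _ _).ge
  obtain ⟨c, rfl⟩ := mem_Uni.mp hg
  exact mem_Uni.mpr ⟨(t : ZMod p) * (t : ZMod p) * c, by rw [dgT_conj_upT, mul_inv_cancel_right]⟩

theorem lowT_not_mem_Uni : lowT (1 : ZMod p) ∉ Uni p := by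
  intro h
  obtain ⟨c, hc⟩ := mem_Uni.mp h
  simpa [lowT, upT] using congrArg (fun g : SpecialLinearGroup (Fin 2) (ZMod p) => g.1 1 0) hc

theorem isPGroup_Uni : IsPGroup p (Uni p) := by
  rintro ⟨g, hg⟩
  obtain ⟨c, rfl⟩ := mem_Uni.mp hg
  refine ⟨1, Subtype.ext ?_⟩
  show upT c ^ p ^ 1 = 1
  rw [pow_one, upT_pow, ZMod.natCast_self, zero_mul, upT_zero]

/-- A torus element normalizing a Sylow subgroup of the preimage of the upper unipotent subgroup. -/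
theorem exists_torus {Y : Type*} [Group Y] [Finite Y] (σ : Y →* SpecialLinearGroup (Fin 2) (ZMod p))
    (hσ : Function.Surjective σ) (t : (ZMod p)ˣ) :
    ∃ (U : Subgroup Y) (h : Y), IsPGroup p U ∧ U ≤ (Uni p).comap σ ∧
      h ∈ Subgroup.normalizer (U : Set Y) ∧
      h ∈ Subgroup.normalizer ((Uni p).comap σ : Set Y) ∧ σ h = dgT t ∧ ∃ u ∈ U, σ u = upT 1 := by
  set E₁ := (Uni p).comap σ with hE
  obtain ⟨U, hU, -⟩ := exists_sylowIn_ge (p := p) (Q := (⊥ : Subgroup Y)) (H := E₁) bot_le IsPGroup.of_bot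
  obtain ⟨h₀, hh₀⟩ := hσ (dgT t)
  have hn₀ : h₀ ∈ Subgroup.normalizer (E₁ : Set Y) := by
    rw [Subgroup.mem_normalizer_iff]
    intro y
    simp only [hE, Subgroup.mem_comap, map_mul, map_inv, hh₀]
    exact Subgroup.mem_normalizer_iff.mp (dgT_mem_normalizer t) _
  have h1 : SylowIn p (conjOf h₀ U) E₁ := by
    have := sylowIn_conjOf hU h₀
    rwa [mem_normalizer_iff_conjOf.mp hn₀] at this
  obtain ⟨e, heE, he⟩ := hU.exists_conj_eq h1
  -- the Sylow subgroup maps onto the unipotent group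
  have hsurj : Uni p ≤ U.map σ := by
    have hle : U.map σ ≤ Uni p := Subgroup.map_le_iff_le_comap.mpr hU.1
    have h3 : (U.map σ).relIndex (Uni p) ∣ U.relIndex E₁ := by
      have hmap : E₁.map σ = Uni p := Subgroup.map_comap_eq_self_of_surjective hσ _
      rw [← hmap, Subgroup.relIndex_map_map]
      exact Subgroup.relIndex_dvd_of_le_left _ le_sup_left |>.trans (by
        rw [sup_eq_left.mpr (show σ.ker ≤ E₁ from MonoidHom.comap_bot σ ▸ Subgroup.comap_mono bot_le)])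
    obtain ⟨k, hk⟩ := IsPGroup.iff_card.1 (isPGroup_Uni (p := p))
    have h4 : (U.map σ).relIndex (Uni p) ∣ p ^ k := hk ▸ Subgroup.relIndex_dvd_card _ _
    obtain ⟨j, -, hj⟩ := (Nat.dvd_prime_pow hpf.out).1 h4
    rw [← Subgroup.relIndex_eq_one]
    rcases Nat.eq_zero_or_pos j with rfl | hj0
    · simpa using hj
    · exact absurd ((dvd_pow_self p hj0.ne').trans (hj ▸ h3)) hU.2.2
  obtain ⟨u, huU, hu⟩ := hsurj (show σ e ∈ Uni p from heE)
  obtain ⟨u₁, hu₁U, hu₁⟩ := hsurj (mem_Uni.mpr ⟨1, rfl⟩ : upT (1 : ZMod p) ∈ Uni p)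
  have hmem : e * h₀ ∈ Subgroup.normalizer (U : Set Y) := by
    rw [mem_normalizer_iff_conjOf, ← conjOf_conjOf, he]
  refine ⟨U, u⁻¹ * (e * h₀), hU.2.1, hU.1, mul_mem (inv_mem (Subgroup.le_normalizer huU)) hmem,
    mul_mem (inv_mem (Subgroup.le_normalizer (hU.1 huU))) (mul_mem (Subgroup.le_normalizer heE) hn₀), ?_,
    u₁, hu₁U, hu₁⟩
  rw [map_mul, map_mul, map_inv, hu, inv_mul_cancel_left, hh₀]

/-- The outcome of the linear core. -/
def HasWitness (p : ℕ) [Fact p.Prime] {K : Type*} [Group K] {V : Type*} [AddCommGroup V] [Module (ZMod p) V]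
    (ρ : K →* Module.End (ZMod p) V) (R K₁ : Subgroup K) (D : Submodule (ZMod p) V) : Prop :=
  ∃ (U : Subgroup K) (h : K) (t : (ZMod p)ˣ) (V₂ : Submodule (ZMod p) V) (v₀ u₀ f : V) (s : (ZMod p)ˣ),
    U ≤ R ∧ h ∈ K₁ ∧ h ∈ Subgroup.normalizer (U : Set K) ∧ (∀ x : (ZMod p)ˣ, x ∈ Subgroup.zpowers t) ∧
    (∀ u ∈ U, ∀ w ∈ V₂, ρ u w ∈ V₂) ∧ (∀ w ∈ V₂, ρ h w ∈ V₂) ∧
    (∀ c d : ZMod p, c • v₀ + d • u₀ ∈ V₂ → c = 0 ∧ d = 0) ∧
    (∀ u ∈ U, ρ u v₀ - v₀ ∈ V₂ ∧ ∃ c : ZMod p, ρ u u₀ - (u₀ + c • v₀) ∈ V₂) ∧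
    (∃ u ∈ U, ∃ c : ZMod p, c ≠ 0 ∧ ρ u u₀ - (u₀ + c • v₀) ∈ V₂) ∧
    ρ h v₀ - (t : ZMod p) • v₀ ∈ V₂ ∧ ρ h u₀ - ((t⁻¹ : (ZMod p)ˣ) : ZMod p) • u₀ ∈ V₂ ∧
    f ∈ D ∧ f ∉ V₂ ∧ (∀ x : (ZMod p)ˣ, x ∈ Subgroup.zpowers s) ∧ ρ h f - (s : ZMod p) • f ∈ V₂

theorem exists_generator (p : ℕ) [Fact p.Prime] : ∃ t : (ZMod p)ˣ, ∀ x : (ZMod p)ˣ, x ∈ Subgroup.zpowers t :=
  IsCyclic.exists_generator

variable {K : Type*} [Group K] [Finite K] {V : Type*} [AddCommGroup V] [Module (ZMod p) V]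

/-- A witness from coordinates on a factor. -/
theorem hasWitness_of_factor {ρ : K →* Module.End (ZMod p) V} (R : Sylow p K) {K₁ : Subgroup K}
    (hR : (R : Subgroup K) ≤ K₁) {D : Submodule (ZMod p) V} (hD : ∀ g ∈ K₁, ∀ w ∈ D, ρ g w ∈ D)
    {Y : Type*} [Group Y] (ι : Y →* K) (σ : Y →* SpecialLinearGroup (Fin 2) (ZMod p))
    {F V₂ : Submodule (ZMod p) V} (hV₂F : V₂ ≤ F) (hF : ∀ y : Y, ∀ w ∈ F, ρ (ι y) w ∈ F)
    (hV₂ : ∀ y : Y, ∀ w ∈ V₂, ρ (ι y) w ∈ V₂)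
    (π : F →ₗ[ZMod p] (Fin 2 → ZMod p)) (hπ : Function.Surjective π)
    (hker : ∀ w : F, π w = 0 ↔ (w : V) ∈ V₂)
    (heq : ∀ (y : Y) (w : F), π ⟨ρ (ι y) w, hF y w w.2⟩ = (σ y).1.mulVec (π w))
    {U : Subgroup Y} {h : Y} {t : (ZMod p)ˣ} (ht : ∀ x : (ZMod p)ˣ, x ∈ Subgroup.zpowers t)
    (hUp : IsPGroup p U) (hUu : U ≤ (Uni p).comap σ) (hUK : U.map ι ≤ K₁) (hhK : ι h ∈ K₁)
    (hhU : h ∈ Subgroup.normalizer (U : Set Y)) (hσh : σ h = dgT t) (hu1 : ∃ u ∈ U, σ u = upT 1)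
    {d : V} (hdD : d ∈ D) (hdF : d ∈ F) (hd : d ∉ V₂) : HasWitness p ρ R K₁ D := by
  classical
  obtain ⟨⟨v₀, hv₀F⟩, hv₀⟩ := hπ ![1, 0]
  obtain ⟨⟨u₀, hu₀F⟩, hu₀⟩ := hπ ![0, 1]
  have hmemV₂ : ∀ w : V, ∀ hw : w ∈ F, π ⟨w, hw⟩ = 0 → w ∈ V₂ := fun w hw h => (hker ⟨w, hw⟩).1 h
  have hdiff : ∀ (y : Y) (w x : V) (hw : w ∈ F) (hx : x ∈ F),
      (σ y).1.mulVec (π ⟨w, hw⟩) = π ⟨x, hx⟩ → ρ (ι y) w - x ∈ V₂ := fun y w x hw hx h => by
    refine hmemV₂ _ (F.sub_mem (hF y w hw) hx) ?_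
    rw [show (⟨ρ (ι y) w - x, F.sub_mem (hF y w hw) hx⟩ : F) = ⟨ρ (ι y) w, hF y w hw⟩ - ⟨x, hx⟩ from rfl,
      map_sub, heq y ⟨w, hw⟩, h, sub_self]
  have hsmul : ∀ (c : ZMod p) (w : V) (hw : w ∈ F), π ⟨c • w, F.smul_mem c hw⟩ = c • π ⟨w, hw⟩ :=
    fun c w hw => by rw [← map_smul]; rfl
  -- the eigenvector
  have hdv : ∀ (x : Fin 2 → ZMod p), (dgT t).1.mulVec x = ![(t : ZMod p) * x 0, ((t⁻¹ : (ZMod p)ˣ) : ZMod p) * x 1] :=
    fun x => by
      ext i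
      fin_cases i <;> simp [dgT, Matrix.mulVec, dotProduct, Fin.sum_univ_two, -Units.val_inv_eq_inv_val]
  obtain ⟨f, hfD, hfF, hfV, s, hs, hhf⟩ : ∃ f, f ∈ D ∧ ∃ hfF : f ∈ F, f ∉ V₂ ∧ ∃ s : (ZMod p)ˣ,
      (∀ x : (ZMod p)ˣ, x ∈ Subgroup.zpowers s) ∧ ρ (ι h) f - (s : ZMod p) • f ∈ V₂ := by
    by_cases hcase : ρ (ι h) d - (t : ZMod p) • d ∈ V₂
    · exact ⟨d, hdD, hdF, hd, t, ht, hcase⟩
    · refine ⟨ρ (ι h) d - (t : ZMod p) • d, D.sub_mem (hD _ hhK d hdD) (D.smul_mem _ hdD),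
        F.sub_mem (hF h d hdF) (F.smul_mem _ hdF), hcase, t⁻¹,
        fun x => by rw [Subgroup.zpowers_inv]; exact ht x, ?_⟩
      refine hdiff h _ _ (F.sub_mem (hF h d hdF) (F.smul_mem _ hdF))
        (F.smul_mem _ (F.sub_mem (hF h d hdF) (F.smul_mem _ hdF))) ?_
      have e : π ⟨ρ (ι h) d - (t : ZMod p) • d, F.sub_mem (hF h d hdF) (F.smul_mem _ hdF)⟩ =
          (σ h).1.mulVec (π ⟨d, hdF⟩) - (t : ZMod p) • π ⟨d, hdF⟩ := by
        rw [show (⟨ρ (ι h) d - (t : ZMod p) • d, F.sub_mem (hF h d hdF) (F.smul_mem _ hdF)⟩ : F) =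
          ⟨ρ (ι h) d, hF h d hdF⟩ - (t : ZMod p) • ⟨d, hdF⟩ from rfl, map_sub, map_smul, heq h ⟨d, hdF⟩]
      rw [hsmul _ _ (F.sub_mem (hF h d hdF) (F.smul_mem _ hdF)), e, hσh]
      ext i
      fin_cases i <;>
        simp [dgT, Matrix.mulVec, dotProduct, Fin.sum_univ_two, Matrix.vecHead, Matrix.vecTail,
          -Units.val_inv_eq_inv_val]
  -- move `U` into the Sylow subgroup
  have hRK : SylowIn p (R : Subgroup K) K₁ := ⟨hR, R.2, fun h =>
    R.not_dvd_index (h.trans (Subgroup.relIndex_dvd_index_of_le hR))⟩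
  obtain ⟨j, hj, hjU⟩ := exists_conj_le_of_sylowIn hRK hUK (hUp.map ι)
  have hcomp : ∀ (g : K) (w : V), ρ (j * g * j⁻¹) (ρ j w) = ρ j (ρ g w) := fun g w => by
    rw [← Module.End.mul_apply, ← map_mul, inv_mul_cancel_right, map_mul, Module.End.mul_apply]
  have hjinj : ∀ w w' : V, ρ j w = ρ j w' → w = w' := fun w w' h => by
    have := congrArg (ρ j⁻¹) h
    rwa [← Module.End.mul_apply, ← Module.End.mul_apply, ← map_mul, inv_mul_cancel, map_one] at this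
  have hback : ∀ w, ρ j w ∈ V₂.map (ρ j) ↔ w ∈ V₂ := fun w =>
    ⟨fun ⟨w', hw', he⟩ => hjinj _ _ he ▸ hw', fun hw => ⟨w, hw, rfl⟩⟩
  refine ⟨conjOf j (U.map ι), j * ι h * j⁻¹, t, V₂.map (ρ j), ρ j v₀, ρ j u₀, ρ j f, s, hjU,
    mul_mem (mul_mem hj hhK) (inv_mem hj), ?_, ht, ?_, ?_, ?_, ?_, ?_, ?_, ?_,
    hD j hj f hfD, fun h => hfV ((hback f).1 h), hs, ?_⟩
  · rw [mem_normalizer_conjOf]
    have hm := Subgroup.le_normalizer_map (H := U) ι ⟨h, hhU, rfl⟩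
    simpa [mul_assoc] using hm
  · rintro _ ⟨_, ⟨u, hu, rfl⟩, rfl⟩ _ ⟨w, hw, rfl⟩
    show ρ (j * ι u * j⁻¹) (ρ j w) ∈ _
    rw [hcomp]
    exact ⟨_, hV₂ u w hw, rfl⟩
  · rintro _ ⟨w, hw, rfl⟩
    rw [hcomp]
    exact ⟨_, hV₂ h w hw, rfl⟩
  · intro c e hce
    rw [← map_smul, ← map_smul, ← map_add, hback] at hce
    have h1 : π ⟨c • v₀ + e • u₀, F.add_mem (F.smul_mem _ hv₀F) (F.smul_mem _ hu₀F)⟩ = 0 := (hker _).2 hce
    rw [show (⟨c • v₀ + e • u₀, F.add_mem (F.smul_mem _ hv₀F) (F.smul_mem _ hu₀F)⟩ : F) =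
      c • ⟨v₀, hv₀F⟩ + e • ⟨u₀, hu₀F⟩ from rfl, map_add, map_smul, map_smul, hv₀, hu₀] at h1
    exact ⟨by simpa using congrFun h1 0, by simpa using congrFun h1 1⟩
  · rintro _ ⟨_, ⟨u, hu, rfl⟩, rfl⟩
    obtain ⟨c, hc⟩ := mem_Uni.mp (hUu hu)
    show ρ (j * ι u * j⁻¹) (ρ j v₀) - ρ j v₀ ∈ _ ∧
      ∃ c : ZMod p, ρ (j * ι u * j⁻¹) (ρ j u₀) - (ρ j u₀ + c • ρ j v₀) ∈ _
    refine ⟨?_, c, ?_⟩
    · rw [hcomp, ← map_sub, hback]
      refine hdiff u _ _ hv₀F hv₀F ?_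
      rw [hc, hv₀]
      ext i
      fin_cases i <;> simp [upT, Matrix.mulVec, dotProduct, Fin.sum_univ_two]
    · rw [hcomp, ← map_smul, ← map_add, ← map_sub, hback]
      refine hdiff u _ _ hu₀F (F.add_mem hu₀F (F.smul_mem _ hv₀F)) ?_
      rw [show (⟨u₀ + c • v₀, F.add_mem hu₀F (F.smul_mem _ hv₀F)⟩ : F) = ⟨u₀, hu₀F⟩ + c • ⟨v₀, hv₀F⟩
        from rfl, map_add, map_smul, hc, hu₀, hv₀]
      ext i
      fin_cases i <;> simp [upT, Matrix.mulVec, dotProduct, Fin.sum_univ_two]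
  · obtain ⟨u, hu, hu'⟩ := hu1
    refine ⟨j * ι u * j⁻¹, conj_mem_conjOf ⟨u, hu, rfl⟩, 1, one_ne_zero, ?_⟩
    rw [hcomp, ← map_smul, ← map_add, ← map_sub, hback]
    refine hdiff u _ _ hu₀F (F.add_mem hu₀F (F.smul_mem _ hv₀F)) ?_
    rw [show (⟨u₀ + (1 : ZMod p) • v₀, F.add_mem hu₀F (F.smul_mem _ hv₀F)⟩ : F) =
      ⟨u₀, hu₀F⟩ + (1 : ZMod p) • ⟨v₀, hv₀F⟩ from rfl, map_add, map_smul, hu', hu₀, hv₀]
    ext i
    fin_cases i <;> simp [upT, Matrix.mulVec, dotProduct, Fin.sum_univ_two]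
  · rw [hcomp, ← map_smul, ← map_sub, hback]
    refine hdiff h _ _ hv₀F (F.smul_mem _ hv₀F) ?_
    rw [hsmul _ _ hv₀F, hσh, hv₀, hdv]
    ext i
    fin_cases i <;> simp [-Units.val_inv_eq_inv_val]
  · rw [hcomp, ← map_smul, ← map_sub, hback]
    refine hdiff h _ _ hu₀F (F.smul_mem _ hu₀F) ?_
    rw [hsmul _ _ hu₀F, hσh, hu₀, hdv]
    ext i
    fin_cases i <;> simp [-Units.val_inv_eq_inv_val]
  · rw [hcomp, ← map_smul, ← map_sub, hback]
    exact hhf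

/-- A natural section of `K₁` on `D` is a witness; otherwise `2`-elements of quadratic pairs in `K₁` fix
`D` pointwise. -/
theorem hasWitness_or_fixes (hp : p ≠ 2) [Finite V] (ρ : K →* Module.End (ZMod p) V) (R : Sylow p K)
    {K₁ : Subgroup K} (hR : (R : Subgroup K) ≤ K₁) {D : Submodule (ZMod p) V}
    (hD : ∀ g ∈ K₁, ∀ w ∈ D, ρ g w ∈ D) :
    HasWitness p ρ R K₁ D ∨ ∀ x₁ ∈ K₁, ∀ x₂ ∈ K₁, (ρ x₁ - 1) * (ρ x₁ - 1) = 0 →
      (ρ x₂ - 1) * (ρ x₂ - 1) = 0 → ∀ z ∈ Subgroup.closure ({x₁, x₂} : Set K),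
        (∃ k : ℕ, z ^ 2 ^ k = 1) → ∀ w ∈ D, ρ z w = w := by
  classical
  rw [or_iff_not_imp_left]
  intro hno x₁ h₁ x₂ h₂ hq₁ hq₂ z hz hk w hw
  let ρ₀ : K₁ →* Module.End (ZMod p) D :=
    { toFun := fun g => (ρ g).restrict (hD g g.2)
      map_one' := LinearMap.ext fun v => Subtype.ext (by simp [LinearMap.restrict_apply])
      map_mul' := fun g g' => LinearMap.ext fun v => Subtype.ext (by simp [LinearMap.restrict_apply]) }
  have hq0 : ∀ g : K₁, (ρ g - 1) * (ρ g - 1) = 0 → (ρ₀ g - 1) * (ρ₀ g - 1) = 0 := fun g hg =>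
    LinearMap.ext fun v => Subtype.ext (by
      simpa [ρ₀, LinearMap.restrict_apply] using LinearMap.congr_fun hg (v : V))
  have hz₁ : z ∈ K₁ := mem_closure_pair_le h₁ h₂ hz
  by_cases hpg : ∀ g ∈ Subgroup.closure ({(⟨x₁, h₁⟩ : K₁), ⟨x₂, h₂⟩} : Set K₁), ∃ k, ρ₀ (g ^ p ^ k) = 1
  · obtain ⟨k, hk⟩ := hk
    have hzc : (⟨z, hz₁⟩ : K₁) ∈ Subgroup.closure ({(⟨x₁, h₁⟩ : K₁), ⟨x₂, h₂⟩} : Set K₁) := by
      have hmap : (Subgroup.closure ({(⟨x₁, h₁⟩ : K₁), ⟨x₂, h₂⟩} : Set K₁)).map K₁.subtype =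
          Subgroup.closure {x₁, x₂} := by
        rw [MonoidHom.map_closure, Set.image_pair]; rfl
      rw [← hmap] at hz
      obtain ⟨g, hg, hgz⟩ := hz
      exact (show g = ⟨z, hz₁⟩ from Subtype.ext hgz) ▸ hg
    obtain ⟨l, hl⟩ := hpg _ hzc
    have hz2 : (⟨z, hz₁⟩ : K₁) ^ 2 ^ k = 1 := Subtype.ext hk
    -- a unit killed by powers of `2` and of `p`
    set e := ρ₀.toHomUnits ⟨z, hz₁⟩ with he
    have e1 : e ^ 2 ^ k = 1 := by rw [he, ← map_pow, hz2, map_one]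
    have e2 : e ^ p ^ l = 1 := by
      rw [he, ← map_pow]
      exact Units.ext hl
    have e3 : e = 1 := orderOf_eq_one_iff.mp (Nat.eq_one_of_dvd_coprimes
      (Nat.Coprime.pow _ _ ((Nat.coprime_primes Nat.prime_two hpf.out).mpr hp.symm))
      (orderOf_dvd_of_pow_eq_one e1) (orderOf_dvd_of_pow_eq_one e2))
    have e4 : ρ₀ ⟨z, hz₁⟩ = 1 := congrArg Units.val e3
    exact congrArg Subtype.val (LinearMap.congr_fun e4 ⟨w, hw⟩)
  · exfalso
    obtain ⟨s⟩ := exists_natural hp ρ₀ (hq0 ⟨x₁, h₁⟩ hq₁) (hq0 ⟨x₂, h₂⟩ hq₂) hpg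
    obtain ⟨t, ht⟩ := exists_generator p
    obtain ⟨U, h, hUp, hUu, hhU, -, hσh, hu1⟩ := exists_torus s.toSL s.surj t
    obtain ⟨⟨⟨d, hdD⟩, hds⟩, hd⟩ := s.proj_surj ![1, 0]
    let ι : s.sub →* K := K₁.subtype.comp s.sub.subtype
    set F := s.space.map D.subtype with hF
    set V₂ := ((LinearMap.ker s.proj).map s.space.subtype).map D.subtype with hV₂
    have hV₂F : V₂ ≤ F := Submodule.map_mono (Submodule.map_subtype_le _ _)
    let eq1 : s.space ≃ₗ[ZMod p] F := Submodule.equivMapOfInjective D.subtype D.subtype_injective s.space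
    have he1 : ∀ w, ((eq1 w : F) : V) = ((w : D) : V) := fun w => rfl
    have hFinv : ∀ y : s.sub, ∀ w ∈ F, ρ (ι y) w ∈ F := by
      rintro y _ ⟨w, hw, rfl⟩
      exact ⟨ρ₀ y w, s.invariant y y.2 w hw, rfl⟩
    refine hno (hasWitness_of_factor (Y := s.sub) R hR hD ι s.toSL hV₂F hFinv ?_
      (s.proj.comp eq1.symm.toLinearMap) (s.proj_surj.comp eq1.symm.surjective) ?_ ?_ ht hUp hUu ?_ h.1.2 hhU
      hσh hu1 hdD ⟨⟨d, hdD⟩, hds, rfl⟩ ?_)
    · rintro y _ ⟨_, ⟨w, hw, rfl⟩, rfl⟩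
      refine ⟨_, ⟨⟨ρ₀ y w, s.invariant y y.2 w w.2⟩, ?_, rfl⟩, rfl⟩
      rw [SetLike.mem_coe, LinearMap.mem_ker, s.equivariant, LinearMap.mem_ker.mp hw, Matrix.mulVec_zero]
    · intro w
      obtain ⟨w, rfl⟩ := eq1.surjective w
      simp only [LinearMap.coe_comp, LinearEquiv.coe_coe, Function.comp_apply, LinearEquiv.symm_apply_apply]
      refine ⟨fun h => ⟨_, ⟨w, h, rfl⟩, rfl⟩, ?_⟩
      rintro ⟨_, ⟨w', hw', rfl⟩, he⟩
      have : w' = w := Subtype.ext (Subtype.ext he)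
      exact this ▸ LinearMap.mem_ker.mp hw'
    · intro y w
      obtain ⟨w, rfl⟩ := eq1.surjective w
      simp only [LinearMap.coe_comp, LinearEquiv.coe_coe, Function.comp_apply, LinearEquiv.symm_apply_apply]
      rw [show (⟨ρ (ι y) (eq1 w : F), hFinv y _ (eq1 w).2⟩ : F) = eq1 ⟨ρ₀ y w, s.invariant y y.2 w w.2⟩
        from Subtype.ext rfl, LinearEquiv.symm_apply_apply, s.equivariant]
    · rintro _ ⟨u, -, rfl⟩
      exact u.1.2
    · rintro ⟨_, ⟨w', hw', rfl⟩, he⟩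
      have : w' = ⟨⟨d, hdD⟩, hds⟩ := Subtype.ext (Subtype.ext he)
      subst this
      have := congrFun ((LinearMap.mem_ker.mp hw').symm.trans hd) 0
      simp at this

omit [Finite K] in
/-- A central `-1` on a factor fixing the base point propagates to the whole group. -/
theorem sub_mem_of_neg_one (hp : p ≠ 2) {Y : Type*} [Group Y] (ρ : Y →* Module.End (ZMod p) V)
    {F V₂ : Submodule (ZMod p) V} (hF : ∀ y : Y, ∀ w ∈ F, ρ y w ∈ F) (hV₂ : ∀ y : Y, ∀ w ∈ V₂, ρ y w ∈ V₂)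
    {v : V} (hv : ∀ y : Y, ρ y v - v ∈ F) {z : Y} (hz : ∀ w ∈ F, ρ z w + w ∈ V₂)
    (hfix : ∀ n : Y, (∀ w ∈ F, ρ n w - w ∈ V₂) → ρ (n * z * n⁻¹) v - v ∈ V₂) :
    ∀ y : Y, ρ y v - v ∈ V₂ := by
  have hsplit : ∀ (x y : Y) (w : V), ρ (x * y) w = ρ x (ρ y w) := fun x y w => by
    rw [map_mul, Module.End.mul_apply]
  have hinv : ∀ (x : Y) (w : V), ρ x⁻¹ (ρ x w) = w := fun x w => by
    rw [← hsplit, inv_mul_cancel, map_one, Module.End.one_apply]
  have h2 : ∀ d : V, (2 : ZMod p) • d ∈ V₂ → d ∈ V₂ := fun d hd => by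
    have h20 : (2 : ZMod p) ≠ 0 := fun h => neg_one_ne_one_zmod (p := p) hp (by linear_combination -h)
    have := V₂.smul_mem ((2 : ZMod p)⁻¹) hd
    rwa [smul_smul, inv_mul_cancel₀ h20, one_smul] at this
  have hzv : ρ z v - v ∈ V₂ := by
    have := hfix 1 (fun w _ => by simp)
    simpa using this
  -- if `z` fixes `v + d` then `d` is killed
  have hkill : ∀ d ∈ F, ρ z (v + d) - (v + d) ∈ V₂ → d ∈ V₂ := by
    intro d hd h
    refine h2 d ?_
    have := V₂.sub_mem (V₂.sub_mem (hz d hd) h) (V₂.neg_mem hzv)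
    rw [map_add] at this
    rw [two_smul]
    convert this using 1
    abel
  have hN : ∀ n : Y, (∀ w ∈ F, ρ n w - w ∈ V₂) → ρ n v - v ∈ V₂ := by
    intro n hn
    set d := ρ n⁻¹ v - v with hd
    have hdV : d ∈ V₂ := by
      refine hkill d (hv n⁻¹) ?_
      have h1 := hV₂ n⁻¹ _ (hfix n hn)
      rw [map_sub, hsplit, hsplit, hinv] at h1
      rwa [show v + d = ρ n⁻¹ v by rw [hd]; abel]
    have := V₂.neg_mem (hV₂ n _ hdV)
    rw [hd, map_sub, ← hsplit, mul_inv_cancel, map_one, Module.End.one_apply, neg_sub] at this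
    exact this
  intro y
  set c := y⁻¹ * z * y * z⁻¹ with hc
  have hcN : ∀ w ∈ F, ρ c w - w ∈ V₂ := by
    intro w hw
    set w₁ := ρ z⁻¹ w with hw₁
    have hw₁F : w₁ ∈ F := hF _ _ hw
    have e1 : ρ z (ρ y w₁) + ρ y w₁ ∈ V₂ := hz _ (hF _ _ hw₁F)
    have e2 : ρ z w₁ + w₁ ∈ V₂ := hz _ hw₁F
    have e3 : ρ z w₁ = w := by rw [hw₁, ← hsplit, mul_inv_cancel, map_one, Module.End.one_apply]
    have e4 := hV₂ y⁻¹ _ e1
    rw [map_add, hinv] at e4
    rw [e3] at e2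
    have e5 : ρ c w = ρ y⁻¹ (ρ z (ρ y w₁)) := by rw [hc, hsplit, hsplit, hsplit]
    rw [e5]
    convert V₂.sub_mem e4 e2 using 1
    abel
  have hcz : ρ c (ρ z v) - v ∈ V₂ := by
    have h1 := hN c hcN
    have h3 := hV₂ c _ hzv
    rw [map_sub] at h3
    convert V₂.add_mem h3 h1 using 1
    abel
  refine hkill _ (hv y) ?_
  rw [show v + (ρ y v - v) = ρ y v by abel]
  have h4 := hV₂ y _ hcz
  rw [map_sub, ← hsplit, ← hsplit, show y * c * z = z * y by rw [hc]; group, hsplit] at h4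
  exact h4

set_option maxHeartbeats 1000000 in
/-- The core: a set of quadratic elements for which `K₁` is strongly embedded in `M` yields a witness. -/
theorem hasWitness_of_pair (hp : p ≠ 2) [Finite V] (ρ : K →* Module.End (ZMod p) V) (R : Sylow p K)
    {K₁ : Subgroup K} (hR : (R : Subgroup K) ≤ K₁) {D : Submodule (ZMod p) V}
    (hD : ∀ g ∈ K₁, ∀ w ∈ D, ρ g w ∈ D) {v : V} (hvD : v ∈ D) (hRv : ∀ r ∈ R, ρ r v = v)
    (hCv : ∀ g, ρ g v = v → g ∈ K₁) {M : Subgroup K} {a : K} (haM : a ∈ M) (haR : a ∈ R)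
    (haq : (ρ a - 1) * (ρ a - 1) = 0)
    (hSE : ∀ g ∈ M, g * a * g⁻¹ ∈ K₁ → g ∈ K₁) (hMK : ¬ M ≤ K₁) : HasWitness p ρ R K₁ D := by
  classical
  rcases hasWitness_or_fixes hp ρ R hR hD with h | hfixD
  · exact h
  have haK : a ∈ K₁ := hR haR
  have hav : ρ a v = v := hRv a haR
  obtain ⟨g₀, hg₀, hmin⟩ := Set.exists_min_image {g | g ∈ M ∧ g ∉ K₁}
    (fun g => Nat.card (Subgroup.closure ({a, g * a * g⁻¹} : Set K))) (Set.toFinite _)
    (Set.not_subset.mp hMK)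
  set Y := Subgroup.closure ({a, g₀ * a * g₀⁻¹} : Set K) with hY
  have haY : a ∈ Y := Subgroup.subset_closure (Set.mem_insert _ _)
  set b₀ := g₀ * a * g₀⁻¹ with hb₀
  have hb₀Y : b₀ ∈ Y := Subgroup.subset_closure (Set.mem_insert_of_mem _ rfl)
  have hb₀M : b₀ ∈ M := mul_mem (mul_mem hg₀.1 haM) (inv_mem hg₀.1)
  have hb₀K : b₀ ∉ K₁ := fun h => hg₀.2 (hSE _ hg₀.1 h)
  have hYM : Y ≤ M := mem_closure_pair_le haM hb₀M
  have hprop : ∀ E : Subgroup K, E ≤ Y → a ∈ E → E ≠ Y → E ≤ K₁ := by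
    intro E hEY haE hne e he
    by_contra heK
    refine hne (Subgroup.eq_of_le_of_card_ge hEY ((hmin e ⟨hYM (hEY he), heK⟩).trans ?_))
    exact Subgroup.card_le_of_le (mem_closure_pair_le haE (mul_mem (mul_mem he haE) (inv_mem he)))
  set b := b₀ * a * b₀⁻¹ with hb
  have hbK : b ∉ K₁ := fun h => hb₀K (hSE _ hb₀M h)
  have hbY : b ∈ Y := mul_mem (mul_mem hb₀Y haY) (inv_mem hb₀Y)
  have hYgen : Subgroup.closure ({a, b} : Set K) = Y :=
    Subgroup.eq_of_le_of_card_ge (mem_closure_pair_le haY hbY) (hmin b₀ ⟨hb₀M, hb₀K⟩)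
  -- the pair inside `Y`
  set aY : Y := ⟨a, haY⟩ with haY'
  set bY : Y := ⟨b, hbY⟩ with hbY'
  have hgen : Subgroup.closure ({aY, bY} : Set Y) = ⊤ := by
    apply Subgroup.map_injective Y.subtype_injective
    rw [MonoidHom.map_closure, Set.image_pair, ← MonoidHom.range_eq_map, Subgroup.range_subtype]
    exact hYgen
  set ρY := ρ.comp Y.subtype with hρY
  have hρY' : ∀ (y : Y) (w : V), ρY y w = ρ y w := fun _ _ => rfl
  have hbq : (ρY bY - 1) * (ρY bY - 1) = 0 := by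
    rw [show bY = ⟨b₀, hb₀Y⟩ * aY * ⟨b₀, hb₀Y⟩⁻¹ from rfl]
    exact conj_quadratic ρY (x := aY) haq _
  set y₀ := ρ b v - v with hy₀
  have hy₀0 : y₀ ≠ 0 := fun h => hbK (hCv b (sub_eq_zero.mp h))
  -- the largest invariant subspace missing `y₀`
  obtain ⟨V₂, ⟨hV₂, hy₀V⟩, hV₂max⟩ := Set.Finite.exists_maximal
    (s := {U : Submodule (ZMod p) V | (∀ y : Y, ∀ w ∈ U, ρY y w ∈ U) ∧ y₀ ∉ U}) (Set.toFinite _)
    ⟨⊥, fun y w hw => by rw [Submodule.mem_bot] at hw; simp [hw], by simpa using hy₀0⟩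
  set F := V₂ ⊔ Submodule.span (ZMod p) (Set.range fun y : Y => ρY y y₀) with hF
  have hy₀F : y₀ ∈ F := Submodule.mem_sup_right (Submodule.subset_span ⟨1, by simp⟩)
  have hV₂F : V₂ ≤ F := le_sup_left
  have hFinv : ∀ y : Y, ∀ w ∈ F, ρY y w ∈ F := by
    intro y
    have : F ≤ F.comap (ρY y) := by
      refine sup_le (fun w hw => Submodule.mem_sup_left (hV₂ y w hw)) ?_
      rw [Submodule.span_le]
      rintro _ ⟨x, rfl⟩
      refine Submodule.mem_sup_right (Submodule.subset_span ⟨y * x, ?_⟩)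
      show ρY (y * x) y₀ = ρY y (ρY x y₀)
      rw [map_mul, Module.End.mul_apply]
    exact fun w hw => this hw
  have hvF : ∀ y : Y, ρY y v - v ∈ F :=
    mem_of_closure_pair hgen (P := fun y => ρY y v - v ∈ F) (by simp) (fun x y hx hy => by
      have := F.add_mem (hFinv x _ hy) hx
      rw [map_sub, sub_add_sub_cancel, ← Module.End.mul_apply, ← map_mul] at this
      exact this) (by show ρ a v - v ∈ F; rw [hav, sub_self]; exact F.zero_mem) hy₀F
  have hmax : ∀ U : Submodule (ZMod p) V, (∀ y : Y, ∀ w ∈ U, ρY y w ∈ U) → V₂ ≤ U → U ≤ F →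
      U = V₂ ∨ U = F := by
    intro U hU hle hUF
    by_cases hy : y₀ ∈ U
    · refine Or.inr (le_antisymm hUF (sup_le hle (Submodule.span_le.mpr ?_)))
      rintro _ ⟨x, rfl⟩
      exact hU x _ hy
    · exact Or.inl (le_antisymm (hV₂max ⟨hU, hy⟩ hle) hle)
  -- the irreducible factor
  let V₂' : Submodule (ZMod p) F := V₂.comap F.subtype
  let ρF : Y →* Module.End (ZMod p) F :=
    { toFun := fun y => (ρY y).restrict (hFinv y)
      map_one' := LinearMap.ext fun v => Subtype.ext (by simp [LinearMap.restrict_apply])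
      map_mul' := fun x y => LinearMap.ext fun v => Subtype.ext (by simp [LinearMap.restrict_apply]) }
  have hV₂'inv : ∀ y : Y, ∀ w ∈ V₂', ρF y w ∈ V₂' := fun y w hw => hV₂ y _ hw
  let ρW : Y →* Module.End (ZMod p) (F ⧸ V₂') :=
    { toFun := fun y => Submodule.mapQ V₂' V₂' (ρF y) (hV₂'inv y)
      map_one' := Submodule.linearMap_qext _ (LinearMap.ext fun v => by simp)
      map_mul' := fun x y => Submodule.linearMap_qext _ (LinearMap.ext fun v => by simp) }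
  have hρW : ∀ (y : Y) (w : F), ρW y (Submodule.Quotient.mk w) = Submodule.Quotient.mk (ρF y w) :=
    fun _ _ => rfl
  have hmk : ∀ w w' : F, (Submodule.Quotient.mk w : F ⧸ V₂') = Submodule.Quotient.mk w' ↔
      (w : V) - w' ∈ V₂ := fun w w' => Submodule.Quotient.eq _
  haveI : Finite (F ⧸ V₂') := Finite.of_surjective _ (Submodule.Quotient.mk_surjective V₂')
  haveI : Nontrivial (F ⧸ V₂') := by
    refine nontrivial_of_ne (Submodule.Quotient.mk ⟨y₀, hy₀F⟩) (Submodule.Quotient.mk 0) fun h => hy₀V ?_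
    simpa using (hmk _ _).1 h
  have hirr : ∀ U : Submodule (ZMod p) (F ⧸ V₂'), (∀ y : Y, ∀ w ∈ U, ρW y w ∈ U) → U = ⊥ ∨ U = ⊤ := by
    intro U hU
    set U' := (U.comap V₂'.mkQ).map F.subtype with hU'
    rcases hmax U' (by
        rintro y _ ⟨w, hw, rfl⟩
        exact ⟨ρF y w, hU y _ hw, rfl⟩)
      (fun w hw => ⟨⟨w, hV₂F hw⟩, by
        show Submodule.Quotient.mk _ ∈ U
        rw [(Submodule.Quotient.mk_eq_zero V₂').2 hw]; exact U.zero_mem, rfl⟩)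
      (Submodule.map_subtype_le _ _) with h | h
    · refine Or.inl ((Submodule.eq_bot_iff _).2 fun w hw => ?_)
      obtain ⟨w, rfl⟩ := Submodule.Quotient.mk_surjective V₂' w
      exact (Submodule.Quotient.mk_eq_zero V₂').2 (h ▸ (⟨w, hw, rfl⟩ : (w : V) ∈ U') : (w : V) ∈ V₂)
    · refine Or.inr (Submodule.eq_top_iff'.2 fun w => ?_)
      obtain ⟨w, rfl⟩ := Submodule.Quotient.mk_surjective V₂' w
      obtain ⟨w', hw', he⟩ : (w : V) ∈ U' := by rw [h]; exact w.2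
      exact (Subtype.ext he : w' = w) ▸ hw'
  have hqW : ∀ y : Y, (ρY y - 1) * (ρY y - 1) = 0 → (ρW y - 1) * (ρW y - 1) = 0 := by
    intro y hy
    refine Submodule.linearMap_qext _ (LinearMap.ext fun w => ?_)
    show (ρW y - 1) ((ρW y - 1) (Submodule.Quotient.mk w)) = 0
    simp only [LinearMap.sub_apply, Module.End.one_apply, hρW, ← Submodule.Quotient.mk_sub]
    rw [Submodule.Quotient.mk_eq_zero]
    have := LinearMap.congr_fun hy (w : V)
    simp only [Module.End.mul_apply, LinearMap.sub_apply, Module.End.one_apply, LinearMap.zero_apply] at this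
    have e0 : ρF y (ρF y w - w) - (ρF y w - w) = 0 := Subtype.ext this
    rw [e0]
    exact V₂'.zero_mem
  by_cases hnt : ∃ y, ρW y ≠ 1
  swap
  · -- trivial factor: the group acts by translations
    push Not at hnt
    exfalso
    have hN : ∀ (y : Y) (w : V), w ∈ F → ρY y w - w ∈ V₂ := fun y w hw => by
      have := LinearMap.congr_fun (hnt y) (Submodule.Quotient.mk ⟨w, hw⟩)
      rw [hρW, Module.End.one_apply, hmk] at this
      exact this
    let δ : Y → V ⧸ V₂ := fun y => Submodule.Quotient.mk (ρY y v - v)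
    have hδ : ∀ x y, δ (x * y) = δ x + δ y := fun x y => by
      simp only [δ, ← Submodule.Quotient.mk_add]
      rw [Submodule.Quotient.eq, map_mul, Module.End.mul_apply]
      convert hN x _ (hvF y) using 1
      rw [map_sub]
      abel
    have h1 : δ 1 = 0 := by simp [δ]
    have h0 : δ aY = 0 := by simp [δ, haY', hρY', hav]
    set g : Y := ⟨b₀, hb₀Y⟩
    have hg : δ g + δ g⁻¹ = 0 := by rw [← hδ, mul_inv_cancel, h1]
    have hb0 : δ bY = 0 := by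
      rw [show bY = g * aY * g⁻¹ from rfl, hδ, hδ, h0, add_zero, hg]
    exact hy₀V ((Submodule.Quotient.mk_eq_zero V₂).1 hb0)
  obtain ⟨x, hbr, hne, z, hzE, ⟨k, hk⟩, hzW⟩ :=
    exists_braid_partner hp hgen ρW hirr (hqW _ haq) (hqW _ hbq) hnt
  set b' := x * aY * x⁻¹ with hb'
  by_cases hE : Subgroup.closure ({aY, b'} : Set Y) = ⊤
  swap
  · -- a proper subgroup carrying `-1` fixes `v`
    exfalso
    have hEK : (Subgroup.closure ({aY, b'} : Set Y)).map Y.subtype ≤ K₁ := by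
      refine hprop _ (Subgroup.map_subtype_le _) ⟨aY, Subgroup.subset_closure (Set.mem_insert _ _), rfl⟩
        fun h => hE (Subgroup.map_injective Y.subtype_injective ?_)
      rw [h, ← MonoidHom.range_eq_map, Subgroup.range_subtype]
    refine hy₀V (sub_mem_of_neg_one (ρ := ρY) hp hFinv hV₂ hvF (z := z) (fun w hw => ?_) (fun n hn => ?_) bY)
    · have := LinearMap.congr_fun hzW (Submodule.Quotient.mk ⟨w, hw⟩)
      rw [hρW, LinearMap.neg_apply, Module.End.one_apply, ← Submodule.Quotient.mk_neg, hmk] at this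
      simp only [sub_neg_eq_add, Submodule.coe_neg] at this
      exact this
    · have hnW : ρW n = 1 := by
        refine Submodule.linearMap_qext _ (LinearMap.ext fun w => ?_)
        show ρW n (Submodule.Quotient.mk w) = Submodule.Quotient.mk w
        rw [hρW, hmk]
        exact hn w w.2
      have hnK : (n : K) ∈ K₁ := by
        set E' := ρW.toHomUnits.ker ⊔ Subgroup.zpowers aY with hE'
        have hn' : n ∈ E' := Subgroup.mem_sup_left (MonoidHom.mem_ker.mpr (Units.ext hnW))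
        refine hprop (E'.map Y.subtype) (Subgroup.map_subtype_le _)
          ⟨aY, Subgroup.mem_sup_right (Subgroup.mem_zpowers _), rfl⟩ (fun h => ?_) ⟨n, hn', rfl⟩
        have htop : E' = ⊤ := Subgroup.map_injective Y.subtype_injective
          (by rw [h, ← MonoidHom.range_eq_map, Subgroup.range_subtype])
        obtain ⟨m, hm, _, ⟨i, rfl⟩, hmi⟩ :=
          Subgroup.mem_sup_of_normal_left.mp (htop ▸ Subgroup.mem_top b' : b' ∈ E')
        set A := ρW.toHomUnits aY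
        set B := ρW.toHomUnits b'
        have hB : B = A ^ i := by
          show ρW.toHomUnits b' = _
          rw [← hmi, map_mul, map_zpow, MonoidHom.mem_ker.mp hm, one_mul]
        have hAB : A * B * A = B * A * B := Units.ext hbr
        have hcomm : A * B = B * A := by rw [hB]; exact ((Commute.refl A).zpow_right i).eq
        refine hne ?_
        have : A = B := by
          rw [← hcomm] at hAB
          exact mul_left_cancel hAB
        exact congrArg Units.val this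
      have hz' : (n * z * n⁻¹ : Y).1 ∈
          Subgroup.closure ({(n * aY * n⁻¹ : Y).1, (n * b' * n⁻¹ : Y).1} : Set K) := by
        have : Subgroup.closure ({(n * aY * n⁻¹ : Y).1, (n * b' * n⁻¹ : Y).1} : Set K) =
            ((Subgroup.closure ({aY, b'} : Set Y)).map (MulAut.conj n).toMonoidHom).map Y.subtype := by
          rw [MonoidHom.map_closure, MonoidHom.map_closure, Set.image_pair, Set.image_pair]
          rfl
        rw [this]
        exact ⟨_, ⟨z, hzE, rfl⟩, rfl⟩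
      have hK₁ : ∀ y ∈ Subgroup.closure ({aY, b'} : Set Y), ((n * y * n⁻¹ : Y) : K) ∈ K₁ := fun y hy =>
        mul_mem (mul_mem hnK (hEK ⟨y, hy, rfl⟩)) (inv_mem hnK)
      have hqn : ∀ y : Y, (ρY y - 1) * (ρY y - 1) = 0 →
          (ρ ((n * y * n⁻¹ : Y) : K) - 1) * (ρ ((n * y * n⁻¹ : Y) : K) - 1) = 0 := fun y hy =>
        conj_quadratic ρY hy n
      have h := hfixD _ (hK₁ _ (Subgroup.subset_closure (Set.mem_insert _ _))) _
        (hK₁ _ (Subgroup.subset_closure (Set.mem_insert_of_mem _ rfl))) (hqn aY haq)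
        (hqn b' (conj_quadratic ρY (x := aY) haq x)) _ hz' ⟨k, by
          rw [← SubgroupClass.coe_pow, conj_pow, hk, mul_one, mul_inv_cancel, OneMemClass.coe_one]⟩ v hvD
      show ρ ((n * z * n⁻¹ : Y) : K) v - v ∈ V₂
      rw [h, sub_self]
      exact V₂.zero_mem
  -- the natural factor
  have hb'q : (ρW b' - 1) * (ρW b' - 1) = 0 := conj_quadratic ρW (hqW _ haq) x
  obtain ⟨e, σ, hσ, hσs, hσa⟩ := exists_coords hE ρW hirr (hqW _ haq) hb'q hbr hne
  obtain ⟨t, ht⟩ := exists_generator p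
  obtain ⟨U, h, hUp, hUu, hhU, hhE, hσh, hu1⟩ := exists_torus σ hσs t
  set E₁ := (Uni p).comap σ with hE₁
  have haE₁ : aY ∈ E₁ := mem_Uni.mpr ⟨-1, hσa⟩
  have hE₁K : E₁.map Y.subtype ≤ K₁ := by
    refine hprop _ (Subgroup.map_subtype_le _) ⟨aY, haE₁, rfl⟩ fun hh => ?_
    have htop : E₁ = ⊤ := Subgroup.map_injective Y.subtype_injective
      (by rw [hh, ← MonoidHom.range_eq_map, Subgroup.range_subtype])
    obtain ⟨y, hy⟩ := hσs (lowT 1)
    have h2 : σ y ∈ Uni p := (htop ▸ Subgroup.mem_top y : y ∈ E₁)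
    rw [hy] at h2
    exact lowT_not_mem_Uni h2
  have hnorm : ∀ y : Y, y ∈ Subgroup.normalizer (E₁ : Set Y) → (y : K) ∈ K₁ := fun y hy =>
    hSE _ (hYM y.2) (hE₁K ⟨_, (Subgroup.mem_normalizer_iff.mp hy aY).mp haE₁, rfl⟩)
  have hker : ∀ n : Y, (∀ w ∈ F, ρY n w - w ∈ V₂) → σ n = 1 := by
    intro n hn
    have h1 : ρW n = 1 := by
      refine Submodule.linearMap_qext _ (LinearMap.ext fun w => ?_)
      show ρW n (Submodule.Quotient.mk w) = Submodule.Quotient.mk w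
      rw [hρW, hmk]
      exact hn w w.2
    apply Subtype.ext
    rw [← hσ, h1, LinearMap.toMatrix_one]
    rfl
  let π : F →ₗ[ZMod p] (Fin 2 → ZMod p) := e.equivFun.toLinearMap.comp V₂'.mkQ
  -- some torus element moves `v`
  by_cases hmove : ∀ n : Y, (∀ w ∈ F, ρY n w - w ∈ V₂) → ρY (n * h * n⁻¹) v - v ∈ V₂
  · exfalso
    refine hy₀V (sub_mem_of_neg_one (ρ := ρY) hp hFinv hV₂ hvF (z := h ^ ((p - 1) / 2))
      (fun w hw => ?_) (fun n hn => ?_) bY)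
    · have h1 : ρW (h ^ ((p - 1) / 2)) = -1 := by
        apply (LinearMap.toMatrix e e).injective
        rw [hσ, map_pow, hσh, dgT_half hp ht, map_neg, LinearMap.toMatrix_one]
        rfl
      have := LinearMap.congr_fun h1 (Submodule.Quotient.mk ⟨w, hw⟩)
      rw [hρW, LinearMap.neg_apply, Module.End.one_apply, ← Submodule.Quotient.mk_neg, hmk] at this
      simp only [sub_neg_eq_add, Submodule.coe_neg] at this
      exact this
    · rw [← conj_pow, map_pow]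
      have h3 := hmove n hn
      have hT := hV₂ (n * h * n⁻¹)
      generalize ρY (n * h * n⁻¹) = T at h3 hT
      induction ((p - 1) / 2) with
      | zero => simp
      | succ m ih =>
        rw [pow_succ', Module.End.mul_apply]
        have h2 := hT _ ih
        rw [map_sub] at h2
        convert V₂.add_mem h2 h3 using 1
        abel
  push Not at hmove
  obtain ⟨n, hn, hnv⟩ := hmove
  have hσn := hker n hn
  set h' := n * h * n⁻¹ with hh'
  have hσh' : σ h' = dgT t := by rw [hh', map_mul, map_mul, map_inv, hσn, one_mul, inv_one, mul_one, hσh]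
  have hnE : n ∈ Subgroup.normalizer (E₁ : Set Y) :=
    Subgroup.le_normalizer (show n ∈ E₁ from mem_Uni.mpr ⟨0, by rw [hσn, upT_zero]⟩)
  have hh'E : h' ∈ Subgroup.normalizer (E₁ : Set Y) := mul_mem (mul_mem hnE hhE) (inv_mem hnE)
  have hh'K := hnorm h' hh'E
  have hUn : conjOf n U ≤ E₁ := by
    rw [conjOf_le_iff]
    intro u hu
    exact (Subgroup.mem_normalizer_iff.mp hnE u).mp (hUu hu)
  refine hasWitness_of_factor (Y := Y) R hR hD Y.subtype σ hV₂F hFinv hV₂ π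
    (e.equivFun.surjective.comp (Submodule.Quotient.mk_surjective V₂')) ?_ ?_ (U := conjOf n U) (h := h') ht
    (hUp.map _) hUn ((Subgroup.map_mono hUn).trans hE₁K) hh'K ?_ hσh' ?_
    (D.sub_mem (hD _ hh'K v hvD) hvD) (hvF h') hnv
  · intro w
    simp only [π, LinearMap.coe_comp, LinearEquiv.coe_coe, Function.comp_apply, LinearEquiv.map_eq_zero_iff,
      Submodule.mkQ_apply, Submodule.Quotient.mk_eq_zero]
    rfl
  · intro y w
    show e.equivFun (ρW y (Submodule.Quotient.mk w)) = _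
    rw [← hσ]
    exact (LinearMap.toMatrix_mulVec_repr e e (ρW y) _).symm
  · rw [mem_normalizer_conjOf]
    simpa [hh', mul_assoc] using hhU
  · obtain ⟨u, hu, hσu⟩ := hu1
    exact ⟨n * u * n⁻¹, conj_mem_conjOf hu, by
      rw [map_mul, map_mul, map_inv, hσn, hσu, one_mul, inv_one, mul_one]⟩

end CfsgLib.ZJFailure
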