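import Cfsg.Agent.ZJFailure.Core
import Cfsg.Agent.GlaubermanZJ.AlperinInduction

/-!
From a quadratic element to the strongly embedded situation of the core: pass to the normalizer of a subgroup
generated by as many quadratic elements as possible among those with normalizer outside the maximal overgroup.
-/

set_option autoImplicit false

namespace CfsgLib.ZJFailure

open CfsgLib.ConjFunctor
open CfsgLib.GlaubermanZJ (fusion_induction_card)

variable {p : ℕ} [hpf : Fact p.Prime] {K : Type*} [Group K] [Finite K]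

theorem mem_normalizer_of_forall {D : Subgroup K} {g : K} (h : ∀ d ∈ D, g * d * g⁻¹ ∈ D) :
    g ∈ Subgroup.normalizer (D : Set K) :=
  mem_normalizer_iff_conjOf.mpr (Subgroup.eq_of_le_of_card_ge (conjOf_le_iff.mpr h) (card_conjOf g D).ge)

theorem mem_normalizer_closure {T : Set K} {g : K}
    (h : ∀ x ∈ T, g * x * g⁻¹ ∈ Subgroup.closure T) :
    g ∈ Subgroup.normalizer (Subgroup.closure T : Set K) := by
  refine mem_normalizer_of_forall fun d hd => ?_
  induction hd using Subgroup.closure_induction with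
  | mem x hx => exact h x hx
  | one => simp
  | mul x y hx hy ihx ihy =>
    rw [show g * (x * y) * g⁻¹ = g * x * g⁻¹ * (g * y * g⁻¹) by group]
    exact mul_mem ihx ihy
  | inv x hx ihx =>
    rw [show g * x⁻¹ * g⁻¹ = (g * x * g⁻¹)⁻¹ by group]
    exact inv_mem ihx

set_option maxHeartbeats 1000000 in
theorem exists_witness (hp : p ≠ 2) {V : Type*} [AddCommGroup V] [Module (ZMod p) V] [Finite V]
    (ρ : K →* Module.End (ZMod p) V) (R : Sylow p K) {K₁ : Subgroup K} (hK₁ : K₁ ≠ ⊤)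
    (hR : (R : Subgroup K) ≤ K₁) (hmax : ∀ L : Subgroup K, (R : Subgroup K) ≤ L → L ≠ ⊤ → L ≤ K₁)
    {D₀ : Submodule (ZMod p) V} (hD₀ : ∀ g ∈ K₁, ∀ w ∈ D₀, ρ g w ∈ D₀) {v : V} (hvD : v ∈ D₀)
    (hRv : ∀ r ∈ R, ρ r v = v) (hspan : Submodule.span (ZMod p) (Set.range fun g : K => ρ g v) = ⊤)
    (hx : ∃ x ∈ R, (ρ x - 1) * (ρ x - 1) = 0 ∧ ρ x ≠ 1) : HasWitness p ρ R K₁ D₀ := by
  classical
  obtain ⟨x₀, hx₀R, hx₀q, hx₀1⟩ := hx
  -- a normal subgroup inside `R` acts trivially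
  have hnormal : ∀ N : Subgroup K, N.Normal → N ≤ (R : Subgroup K) → ∀ n ∈ N, ρ n = 1 := by
    intro N hN hNR n hn
    refine LinearMap.ext_on hspan ?_
    rintro _ ⟨g, rfl⟩
    have h := hRv _ (hNR (by simpa using hN.conj_mem n hn g⁻¹ : g⁻¹ * n * g ∈ N))
    calc ρ n (ρ g v) = ρ g (ρ (g⁻¹ * n * g) v) := by
          rw [← Module.End.mul_apply, ← map_mul, ← Module.End.mul_apply, ← map_mul]; congr 2; group
      _ = ρ g v := by rw [h]
  let Cv : Subgroup K :=
    { carrier := {g | ρ g v = v}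
      one_mem' := by simp
      mul_mem' := fun {g h} hg hh => by
        show ρ (g * h) v = v
        rw [map_mul, Module.End.mul_apply, show ρ h v = v from hh, show ρ g v = v from hg]
      inv_mem' := fun {g} hg => by
        show ρ g⁻¹ v = v
        conv_lhs => rw [← show ρ g v = v from hg]
        rw [← Module.End.mul_apply, ← map_mul, inv_mul_cancel, map_one, Module.End.one_apply] }
  have hCv : ∀ g, ρ g v = v → g ∈ K₁ := by
    intro g hg
    refine hmax Cv hRv (fun htop => hx₀1 ?_) hg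
    refine LinearMap.ext_on hspan ?_
    rintro _ ⟨g, rfl⟩
    have h1 : ρ g v = v := (htop ▸ Subgroup.mem_top g : g ∈ Cv)
    show ρ x₀ (ρ g v) = ρ g v
    rw [h1]
    exact hRv x₀ hx₀R
  -- the quadratic elements
  set X : Set K := {x | (ρ x - 1) * (ρ x - 1) = 0 ∧ ρ x ≠ 1} with hX
  have hXconj : ∀ g x, x ∈ X → g * x * g⁻¹ ∈ X := fun g x hx =>
    ⟨CfsgLib.QdSection.conj_quadratic ρ hx.1 g, fun h => hx.2 (by
      rw [show x = g⁻¹ * (g * x * g⁻¹) * g by group, map_mul, map_mul, h, mul_one, ← map_mul, inv_mul_cancel,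
        map_one])⟩
  let cnt : Subgroup K → ℕ := fun A => (X ∩ (A : Set K)).ncard
  have hcnt : ∀ g A, cnt (conjOf g A) = cnt A := by
    intro g A
    have : X ∩ (conjOf g A : Set K) = (fun x => g * x * g⁻¹) '' (X ∩ (A : Set K)) := by
      ext x
      constructor
      · rintro ⟨hxX, hxA⟩
        refine ⟨g⁻¹ * x * g, ⟨by simpa using hXconj g⁻¹ x hxX, mem_conjOf.mp hxA⟩, by group⟩
      · rintro ⟨y, ⟨hyX, hyA⟩, rfl⟩
        exact ⟨hXconj g y hyX, conj_mem_conjOf hyA⟩
    show (X ∩ (conjOf g A : Set K)).ncard = _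
    rw [this, Set.ncard_image_of_injective _ fun a b hab => by simpa using hab]
  have hcmono : ∀ {A B : Subgroup K}, A ≤ B → cnt A ≤ cnt B := fun h =>
    Set.ncard_le_ncard (Set.inter_subset_inter_right _ h) (Set.toFinite _)
  -- the largest number of such elements in a subgroup with normalizer outside `K₁`
  obtain ⟨Q₀, ⟨hQ₀R, hQ₀N⟩, hQ₀max⟩ := Set.exists_max_image
    {Q : Subgroup K | Q ≤ (R : Subgroup K) ∧ ¬ Subgroup.normalizer (Q : Set K) ≤ K₁} cnt (Set.toFinite _)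
    ⟨⊥, bot_le, fun h => hK₁ (eq_top_iff.mpr fun g _ => h (by
      rw [Subgroup.normalizer_eq_top]; exact Subgroup.mem_top g))⟩
  set k := cnt Q₀ with hk
  set D' := Subgroup.closure (X ∩ (Q₀ : Set K)) with hD'
  have hD'Q : D' ≤ Q₀ := (Subgroup.closure_le _).2 Set.inter_subset_right
  have hD'X : X ∩ (D' : Set K) = X ∩ (Q₀ : Set K) :=
    Set.Subset.antisymm (Set.inter_subset_inter_right _ hD'Q) fun x hx => ⟨hx.1, Subgroup.subset_closure hx⟩
  have hD'N : ¬ Subgroup.normalizer (D' : Set K) ≤ K₁ := fun h => hQ₀N fun g hg => h (mem_normalizer_closure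
    fun x hx => Subgroup.subset_closure ⟨hXconj g x hx.1, (Subgroup.mem_normalizer_iff.mp hg x).mp hx.2⟩)
  obtain ⟨D, ⟨hDR, hDN, hDgen, hDk⟩, hDmax⟩ := Set.exists_max_image
    {D : Subgroup K | D ≤ (R : Subgroup K) ∧ ¬ Subgroup.normalizer (D : Set K) ≤ K₁ ∧
      Subgroup.closure (X ∩ (D : Set K)) = D ∧ cnt D = k}
    (fun D => Nat.card ↥((R : Subgroup K) ⊓ Subgroup.normalizer (D : Set K))) (Set.toFinite _)
    ⟨D', hD'Q.trans hQ₀R, hD'N, by rw [hD'X], congrArg Set.ncard hD'X⟩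
  set M := Subgroup.normalizer (D : Set K) with hM
  set R₂ := (R : Subgroup K) ⊓ M with hR₂
  -- a new quadratic element normalizing `D`
  obtain ⟨a, haX, haR₂, haD⟩ : ∃ a ∈ X, a ∈ R₂ ∧ a ∉ D := by
    by_contra hall
    push Not at hall
    by_cases hRM : (R : Subgroup K) ≤ M
    · refine hDN (hmax M hRM fun htop => hx₀1 ?_)
      exact hnormal D (Subgroup.normalizer_eq_top_iff.mp htop) hDR x₀
        (hall x₀ ⟨hx₀q, hx₀1⟩ ⟨hx₀R, hRM hx₀R⟩)
    · have hne : R₂ ≠ (R : Subgroup K) := fun h => hRM (h ▸ inf_le_right)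
      have hlt := card_lt_normalizer R (inf_le_left : R₂ ≤ (R : Subgroup K)) hne
      refine not_le.mpr hlt (Subgroup.card_le_of_le fun y hy => ⟨hy.1, ?_⟩)
      rw [hM, ← hDgen]
      refine mem_normalizer_closure fun x hx => ?_
      have h1 : x ∈ R₂ := ⟨hDR hx.2, Subgroup.le_normalizer hx.2⟩
      rw [hDgen]
      exact hall _ (hXconj y x hx.1) ((Subgroup.mem_normalizer_iff.mp hy.2 x).mp h1)
  have hlarge : k < cnt R₂ := by
    rw [← hDk]
    refine Set.ncard_lt_ncard ((Set.ssubset_iff_of_subset ?_).mpr ⟨a, ⟨haX, haR₂⟩, fun h => haD h.2⟩)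
      (Set.toFinite _)
    exact Set.inter_subset_inter_right _ (le_inf hDR Subgroup.le_normalizer)
  -- fusion of the subgroups with many quadratic elements is in `K₁`
  let Φ : Subgroup K → K → Prop := fun A g => k < cnt A → g ∈ K₁
  have hΦ : FusionProp (R : Subgroup K) Φ :=
    { comp := fun A g h _ _ _ h1 h2 hk => mul_mem (h2 (by rwa [hcnt])) (h1 hk)
      mono := fun A B g hAB _ _ h hk => h (hk.trans_le (hcmono hAB)) }
  have hfus : ∀ (A : Subgroup K) (g : K), A ≤ (R : Subgroup K) → conjOf g A ≤ (R : Subgroup K) → Φ A g := by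
    refine fusion_induction_card R hΦ Set.univ (fun T hT => ?_) fun U _ hU _ y hy hkU => ?_
    · obtain ⟨g, hg, -⟩ := exists_fullyNormalized_conj R hT bot_le IsPGroup.of_bot
      exact ⟨_, Set.mem_univ _, hg, g, rfl⟩
    · by_contra hyK
      exact not_le.mpr hkU (hQ₀max U ⟨hU.1, fun h => hyK (h hy)⟩)
  -- `R₂` is a Sylow subgroup of `M`
  have hR₂M : SylowIn p R₂ M := by
    obtain ⟨R', hR', hle⟩ := exists_sylowIn_ge (inf_le_right : R₂ ≤ M) (isPGroup_inf (S := R) M)
    obtain ⟨g, hg⟩ := exists_conjOf_le hR'.2.1 R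
    have hgK : g ∈ K₁ := hfus R₂ g inf_le_left ((conjOf_mono hle).trans hg) hlarge
    have hD2 : D ≤ R₂ := le_inf hDR Subgroup.le_normalizer
    have h1 : Nat.card R' ≤ Nat.card ↥((R : Subgroup K) ⊓ Subgroup.normalizer (conjOf g D : Set K)) := by
      rw [← card_conjOf g R']
      refine Subgroup.card_le_of_le (le_inf hg ?_)
      rw [normalizer_conjOf]
      exact conjOf_mono hR'.1
    refine sylowIn_of_card_le hR' inf_le_right (isPGroup_inf (S := R) M) (h1.trans (hDmax _ ⟨?_, ?_, ?_, ?_⟩))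
    · exact (conjOf_mono (hD2.trans hle)).trans hg
    · intro h
      refine hDN fun x hx => ?_
      have h2 : g * x * g⁻¹ ∈ K₁ := h (by rw [normalizer_conjOf]; exact conj_mem_conjOf hx)
      have := mul_mem (mul_mem (inv_mem hgK) h2) hgK
      simpa [mul_assoc] using this
    · apply le_antisymm ((Subgroup.closure_le _).2 Set.inter_subset_right)
      conv_lhs => rw [← hDgen]
      rw [conjOf, MonoidHom.map_closure, Subgroup.closure_le]
      rintro _ ⟨x, hx, rfl⟩
      exact Subgroup.subset_closure ⟨by simpa using hXconj g x hx.1, by simpa using conj_mem_conjOf (g := g) hx.2⟩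
    · rw [hcnt, hDk]
  refine hasWitness_of_pair hp ρ R hR hD₀ hvD hRv hCv (M := M) (a := a) haR₂.2 haR₂.1 haX.1 ?_ hDN
  intro g hg hga
  have hle₁ : R₂ ≤ K₁ ⊓ M := le_inf ((inf_le_left : R₂ ≤ _).trans hR) inf_le_right
  have hR₂K : SylowIn p R₂ (K₁ ⊓ M) :=
    ⟨hle₁, hR₂M.2.1, fun h => hR₂M.2.2 (h.trans (Dvd.intro _
      (Subgroup.relIndex_mul_relIndex R₂ (K₁ ⊓ M) M hle₁ inf_le_right)))⟩
  set a' := g * a * g⁻¹ with ha'
  have ha'M : a' ∈ M := mul_mem (mul_mem hg haR₂.2) (inv_mem hg)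
  set A := D ⊔ Subgroup.zpowers a with hA
  have hA₂ : A ≤ R₂ := sup_le (le_inf hDR Subgroup.le_normalizer) (Subgroup.zpowers_le.mpr haR₂)
  -- move the image of `A` into `R₂` inside `K₁`
  have hA' : conjOf g A ≤ D ⊔ Subgroup.zpowers a' := by
    rw [conjOf, hA, Subgroup.map_sup, MonoidHom.map_zpowers]
    refine sup_le_sup ?_ le_rfl
    exact (mem_normalizer_iff_conjOf.mp hg).le
  have hDK : D ≤ K₁ ⊓ M := le_inf (hDR.trans hR) Subgroup.le_normalizer
  have hK' : conjOf g A ≤ K₁ ⊓ M :=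
    hA'.trans (sup_le hDK (Subgroup.zpowers_le.mpr ⟨hga, ha'M⟩))
  obtain ⟨j, hj, hjA⟩ := exists_conj_le_of_sylowIn hR₂K hK' ((hR₂M.2.1.to_le hA₂).map _)
  rw [conjOf_conjOf] at hjA
  have hjg : j * g ∈ K₁ := by
    refine hfus A _ (hA₂.trans inf_le_left) (hjA.trans inf_le_left) ?_
    rw [← hDk]
    refine Set.ncard_lt_ncard ((Set.ssubset_iff_of_subset ?_).mpr
      ⟨a, ⟨haX, Subgroup.mem_sup_right (Subgroup.mem_zpowers a)⟩, fun h => haD h.2⟩) (Set.toFinite _)
    exact Set.inter_subset_inter_right _ (le_sup_left : D ≤ A)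
  have := mul_mem (inv_mem (show j ∈ K₁ from hj.1)) hjg
  simpa [← mul_assoc] using this

end CfsgLib.ZJFailure
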