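import Cfsg.Agent.QdSection.Sections
import Cfsg.Agent.QdSection.Natural
import Cfsg.Agent.ConjFunctor.Basic
import Cfsg.Prelude.Def_LocalEven
import Cfsg.Agent.Eq.Def_LocalEven

/-!
The group `F(p)` from a `p`-subgroup `U`, an element normalizing it, and a two-dimensional factor on which they
act as a Borel subgroup of `SL(2, p)`; an eigenvector of order `p` from an eigenvector in a factor.
-/

set_option autoImplicit false

namespace CfsgLib.ZJFailure

open Matrix
open Cfsg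
open CfsgLib.QdSection
open CfsgLib.ConjFunctor

variable {p : ℕ} [hpf : Fact p.Prime]

/-- The diagonal element with entries `t`, `t⁻¹`. -/
def dgT (t : (ZMod p)ˣ) : SpecialLinearGroup (Fin 2) (ZMod p) :=
  ⟨!![(t : ZMod p), 0; 0, ((t⁻¹ : (ZMod p)ˣ) : ZMod p)], by simp [det_fin_two, -Units.val_inv_eq_inv_val]⟩

theorem dgT_mul (s t : (ZMod p)ˣ) : dgT s * dgT t = dgT (s * t) := by
  apply Subtype.ext
  show (dgT s).1 * (dgT t).1 = (dgT (s * t)).1
  ext i j
  fin_cases i <;> fin_cases j <;>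
    simp [dgT, Matrix.mul_apply, Fin.sum_univ_two, mul_comm, -Units.val_inv_eq_inv_val]

theorem dgT_one : dgT (1 : (ZMod p)ˣ) = 1 := by
  apply Subtype.ext
  ext i j
  fin_cases i <;> fin_cases j <;> simp [dgT, -Units.val_inv_eq_inv_val]

theorem dgT_pow (t : (ZMod p)ˣ) (k : ℕ) : dgT t ^ k = dgT (t ^ k) := by
  induction k with
  | zero => simp [dgT_one]
  | succ k ih => rw [pow_succ, ih, dgT_mul, pow_succ]

theorem orderOf_generator {t : (ZMod p)ˣ} (ht : ∀ u : (ZMod p)ˣ, u ∈ Subgroup.zpowers t) :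
    orderOf t = p - 1 := by
  rw [orderOf_eq_card_of_forall_mem_zpowers ht, Nat.card_eq_fintype_card, ZMod.card_units]

/-- The middle power of a generator of the multiplicative group is `-1`. -/
theorem pow_half_eq (hp : p ≠ 2) {t : (ZMod p)ˣ} (ht : ∀ u : (ZMod p)ˣ, u ∈ Subgroup.zpowers t) :
    t ^ ((p - 1) / 2) = -1 := by
  obtain ⟨m, hm⟩ := hpf.out.odd_of_ne_two hp
  have hm0 : 0 < m := by
    have := hpf.out.two_le
    omega
  have ho := orderOf_generator ht
  rw [show (p - 1) / 2 = m by omega]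
  have h2 : (t ^ m) * (t ^ m) = 1 := by
    rw [← pow_add, show m + m = p - 1 by omega, ← ho, pow_orderOf_eq_one]
  have h1 : t ^ m ≠ 1 := fun h => by
    have := orderOf_le_of_pow_eq_one hm0 h
    omega
  have h3 : ((t ^ m : (ZMod p)ˣ) : ZMod p) * ((t ^ m : (ZMod p)ˣ) : ZMod p) = 1 := by
    rw [← Units.val_mul, h2, Units.val_one]
  rcases mul_self_eq_one_iff.mp h3 with h | h
  · exact absurd (Units.ext (by rw [h, Units.val_one])) h1
  · exact Units.ext (by rw [h]; simp)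

theorem dgT_half (hp : p ≠ 2) {t : (ZMod p)ˣ} (ht : ∀ u : (ZMod p)ˣ, u ∈ Subgroup.zpowers t) :
    dgT t ^ ((p - 1) / 2) = -1 := by
  rw [dgT_pow, pow_half_eq hp ht]
  apply Subtype.ext
  ext i j
  fin_cases i <;> fin_cases j <;> simp [dgT, -Units.val_inv_eq_inv_val]

/-- An upper triangular element is a diagonal one times a transvection. -/
theorem eq_dgT_mul_upT {g : SpecialLinearGroup (Fin 2) (ZMod p)} (hg : g.1 1 0 = 0) :
    ∃ (s : (ZMod p)ˣ) (c : ZMod p), g = dgT s * upT c := by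
  have hd : g.1 0 0 * g.1 1 1 = 1 := by
    have := g.2
    rw [det_fin_two, hg, mul_zero, sub_zero] at this
    exact this
  refine ⟨⟨g.1 0 0, g.1 1 1, hd, by rw [mul_comm]; exact hd⟩, g.1 1 1 * g.1 0 1, ?_⟩
  apply Subtype.ext
  show g.1 = (dgT _).1 * (upT _).1
  ext i j
  fin_cases i <;> fin_cases j <;> simp [dgT, upT, Matrix.mul_apply, Fin.sum_univ_two, hg, -Units.val_inv_eq_inv_val]
  rw [← mul_assoc, hd, one_mul]

theorem upT_pow (c : ZMod p) (k : ℕ) : upT c ^ k = upT ((k : ZMod p) * c) := by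
  induction k with
  | zero => simp [upT_zero]
  | succ k ih => rw [pow_succ, ih, upT_mul]; congr 1; push_cast; ring

theorem mulVec_single_cases {g g' : Matrix (Fin 2) (Fin 2) (ZMod p)}
    (h : ∀ x : Fin 2 → ZMod p, g.mulVec x = g'.mulVec x) : g = g' :=
  Matrix.ext_of_mulVec_single fun i => h _

set_option maxHeartbeats 1000000 in
/-- `F(p)` is involved in `H`. -/
theorem involves_fOver {G : Type*} [Group G] [Finite G] (hp : p ≠ 2) (H U W : Subgroup G) (n : G)
    (t : (ZMod p)ˣ) (ht : ∀ u : (ZMod p)ˣ, u ∈ Subgroup.zpowers t)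
    (hUp : IsPGroup p U) (hUH : U ≤ H) (hnH : n ∈ H) (hWU : W ≤ U)
    (hnU : n ∈ Subgroup.normalizer (U : Set G)) (hnW : n ∈ Subgroup.normalizer (W : Set G))
    (hUW : U ≤ Subgroup.normalizer (W : Set G))
    (τ : W →* Multiplicative (Fin 2 → ZMod p)) (hτ : Function.Surjective τ)
    (hn : ∀ w : W, (τ ⟨n * w * n⁻¹, (Subgroup.mem_normalizer_iff.mp hnW w).mp w.2⟩).toAdd =
      (dgT t).1.mulVec (τ w).toAdd)
    (hu : ∀ (u : G) (hu : u ∈ U), ∃ c : ZMod p, ∀ w : W,
      (τ ⟨u * w * u⁻¹, (Subgroup.mem_normalizer_iff.mp (hUW hu) w).mp w.2⟩).toAdd =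
        (upT c).1.mulVec (τ w).toAdd)
    (hu1 : ∃ (u : G) (hu : u ∈ U) (c : ZMod p), c ≠ 0 ∧ ∀ w : W,
      (τ ⟨u * w * u⁻¹, (Subgroup.mem_normalizer_iff.mp (hUW hu) w).mp w.2⟩).toAdd =
        (upT c).1.mulVec (τ w).toAdd) :
    Involves ↥(Cfsg.fOver (ZMod p)) ↥H := by
  classical
  set E := Subgroup.closure (insert n (U : Set G)) with hE
  have hnE : n ∈ E := Subgroup.subset_closure (Set.mem_insert _ _)
  have hUE : U ≤ E := fun x hx => Subgroup.subset_closure (Set.mem_insert_of_mem _ hx)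
  have hEH : E ≤ H := (Subgroup.closure_le _).2 (Set.insert_subset hnH hUH)
  have hEW : E ≤ Subgroup.normalizer (W : Set G) := (Subgroup.closure_le _).2 (Set.insert_subset hnW hUW)
  let act : ∀ y : E, W → W := fun y w =>
    ⟨y * w * (y : G)⁻¹, (Subgroup.mem_normalizer_iff.mp (hEW y.2) w).mp w.2⟩
  have hact_mul : ∀ (y z : E) (w : W), act (y * z) w = act y (act z w) := fun y z w =>
    Subtype.ext (by simp [act, mul_assoc])
  have hex : ∀ y : E, ∃ M : SpecialLinearGroup (Fin 2) (ZMod p), M.1 1 0 = 0 ∧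
      ∀ w : W, (τ (act y w)).toAdd = M.1.mulVec (τ w).toAdd := by
    rintro ⟨y, hy⟩
    induction hy using Subgroup.closure_induction with
    | mem y hy =>
      rcases hy with rfl | hy
      · exact ⟨dgT t, by simp [dgT, -Units.val_inv_eq_inv_val], hn⟩
      · obtain ⟨c, hc⟩ := hu y hy
        exact ⟨upT c, by simp [upT], hc⟩
    | one =>
      refine ⟨1, by simp, fun w => ?_⟩
      rw [show act ⟨1, one_mem E⟩ w = w from Subtype.ext (by simp [act])]
      simp
    | mul y z hy hz ihy ihz =>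
      obtain ⟨M, hM0, hM⟩ := ihy
      obtain ⟨N, hN0, hN⟩ := ihz
      refine ⟨M * N, by
          show (M.1 * N.1) 1 0 = 0
          simp [Matrix.mul_apply, Fin.sum_univ_two, hM0, hN0],
        fun w => ?_⟩
      rw [show act ⟨y * z, mul_mem hy hz⟩ w = act ⟨y, hy⟩ (act ⟨z, hz⟩ w) from hact_mul ⟨y, hy⟩ ⟨z, hz⟩ w,
        hM, hN, Matrix.mulVec_mulVec]
      rfl
    | inv y hy ihy =>
      obtain ⟨M, hM0, hM⟩ := ihy
      refine ⟨M⁻¹, by simp [SpecialLinearGroup.coe_inv, Matrix.adjugate_fin_two, hM0], fun w => ?_⟩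
      have h1 := hM (act ⟨y⁻¹, inv_mem hy⟩ w)
      rw [← hact_mul, show act (⟨y, hy⟩ * ⟨y⁻¹, inv_mem hy⟩) w = w from Subtype.ext (by simp [act])] at h1
      rw [h1, Matrix.mulVec_mulVec, show (M⁻¹).1 * M.1 = 1 from congrArg Subtype.val (inv_mul_cancel M),
        Matrix.one_mulVec]
  choose sf hsf0 hsf using hex
  have huniq : ∀ (y : E) (M : Matrix (Fin 2) (Fin 2) (ZMod p)),
      (∀ w : W, (τ (act y w)).toAdd = M.mulVec (τ w).toAdd) → (sf y).1 = M := fun y M hM =>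
    mulVec_single_cases fun x => by
      obtain ⟨w, hw⟩ := hτ (Multiplicative.ofAdd x)
      have h := (hsf y w).symm.trans (hM w)
      rwa [hw, toAdd_ofAdd] at h
  let σ : E →* SpecialLinearGroup (Fin 2) (ZMod p) :=
    MonoidHom.mk (OneHom.mk sf (Subtype.ext (huniq 1 1 fun w => by
        rw [show act 1 w = w from Subtype.ext (by simp [act]), Matrix.one_mulVec])))
      (fun y z => Subtype.ext (huniq _ _ fun w => by
        rw [hact_mul, hsf, hsf, Matrix.mulVec_mulVec]; rfl))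
  have hσ : ∀ y : E, σ y = sf y := fun _ => rfl
  have hσn : σ ⟨n, hnE⟩ = dgT t := Subtype.ext (huniq _ _ hn)
  -- the element acting as `-1`
  set z₁ : E := ⟨n, hnE⟩ ^ ((p - 1) / 2) with hz₁
  have hσz₁ : σ z₁ = -1 := by rw [hz₁, map_pow, hσn, dgT_half hp ht]
  obtain ⟨k, m, hm, hkm⟩ := Nat.exists_eq_two_pow_mul_odd (n := orderOf z₁) (orderOf_pos z₁).ne'
  set z₀ := z₁ ^ m with hz₀
  have hσz₀ : σ z₀ = -1 := by rw [hz₀, map_pow, hσz₁, hm.neg_one_pow]
  have hz₀2 : z₀ ^ 2 ^ k = 1 := by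
    rw [hz₀, ← pow_mul, mul_comm, ← hkm, pow_orderOf_eq_one]
  haveI h2 : Fact (Nat.Prime 2) := ⟨Nat.prime_two⟩
  have hz₀p : IsPGroup 2 (Subgroup.zpowers z₀) := by
    rintro ⟨y, i, rfl⟩
    refine ⟨k, Subtype.ext ?_⟩
    show (z₀ ^ i) ^ 2 ^ k = 1
    rw [← zpow_natCast, _root_.zpow_comm, zpow_natCast, hz₀2, _root_.one_zpow]
  have hnz₀ : Commute (⟨n, hnE⟩ : E) z₀ := by
    rw [hz₀, hz₁]
    exact ((Commute.refl (⟨n, hnE⟩ : E)).pow_right _).pow_right _
  set K₁ := Subgroup.centralizer ({z₀} : Set E) with hK₁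
  have hK₁iff : ∀ y : E, y ∈ K₁ ↔ z₀ * y = y * z₀ := fun y => by
    rw [hK₁, Subgroup.mem_centralizer_iff]
    simp
  -- every element of the Borel subgroup is attained on `K₁`
  have hz₀U : ∀ y : E, y ∈ Subgroup.zpowers z₀ → ∀ x : E, (x : G) ∈ U →
      ((y * x * y⁻¹ : E) : G) ∈ U := by
    intro y hy x hx
    have hyn : (y : G) ∈ Subgroup.normalizer (U : Set G) := by
      obtain ⟨i, rfl⟩ := hy
      rw [SubgroupClass.coe_zpow]
      refine zpow_mem ?_ i
      rw [hz₀, hz₁, SubgroupClass.coe_pow, SubgroupClass.coe_pow]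
      exact pow_mem (pow_mem hnU _) _
    simpa using (Subgroup.mem_normalizer_iff.mp hyn (x : G)).mp hx
  have hfix : ∀ x : E, (x : G) ∈ U → ∃ x' : E, x' ∈ K₁ ∧ σ x' = σ x := by
    intro x hx
    let Ω := {y : E // (y : G) ∈ U ∧ σ y = σ x}
    have hcomm : ∀ y : Subgroup.zpowers z₀, ∀ g : SpecialLinearGroup (Fin 2) (ZMod p),
        σ y * g * (σ y)⁻¹ = g := by
      rintro ⟨_, i, rfl⟩ g
      have hc : Commute ((-1 : SpecialLinearGroup (Fin 2) (ZMod p)) ^ i) g :=
        (Commute.neg_one_left g).zpow_left i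
      simp only [map_zpow, hσz₀]
      rw [hc.eq, mul_inv_cancel_right]
    letI : MulAction (Subgroup.zpowers z₀) Ω :=
      { smul := fun y w => ⟨(y : E) * w.1 * (y : E)⁻¹, hz₀U y y.2 _ w.2.1, by
          rw [map_mul, map_mul, map_inv, w.2.2]; exact hcomm y _⟩
        one_smul := fun w => Subtype.ext (by show ((1 : Subgroup.zpowers z₀) : E) * w.1 * _ = w.1; simp)
        mul_smul := fun a b w => Subtype.ext (by
          show ((a * b : Subgroup.zpowers z₀) : E) * w.1 * _ = (a : E) * ((b : E) * w.1 * _) * _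
          simp [mul_assoc]) }
    have hcard : ¬ 2 ∣ Nat.card Ω := by
      have e : Ω ≃ ↥((σ.ker.map E.subtype) ⊓ U) :=
        { toFun := fun w => ⟨((x⁻¹ * w.1 : E) : G), ⟨x⁻¹ * w.1, by
              rw [SetLike.mem_coe, MonoidHom.mem_ker, map_mul, map_inv, w.2.2, inv_mul_cancel], rfl⟩,
            by simpa using mul_mem (inv_mem hx) w.2.1⟩
          invFun := fun g => ⟨x * ⟨g, Subgroup.map_subtype_le _ g.2.1⟩, by simpa using mul_mem hx g.2.2, by
            obtain ⟨y, hy, hyg⟩ := g.2.1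
            have : (⟨(g : G), Subgroup.map_subtype_le _ g.2.1⟩ : E) = y := Subtype.ext hyg.symm
            rw [map_mul, this, MonoidHom.mem_ker.mp hy, mul_one]⟩
          left_inv := fun w => Subtype.ext (Subtype.ext (by simp))
          right_inv := fun g => Subtype.ext (by simp) }
      rw [Nat.card_congr e]
      obtain ⟨j, hj⟩ := IsPGroup.iff_card.1 (hUp.to_le (inf_le_right : (σ.ker.map E.subtype) ⊓ U ≤ U))
      rw [hj]
      intro hdvd
      exact hp ((Nat.prime_dvd_prime_iff_eq Nat.prime_two hpf.out).mp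
        (Nat.prime_two.dvd_of_dvd_pow hdvd)).symm
    obtain ⟨w, hw⟩ := hz₀p.nonempty_fixed_point_of_prime_not_dvd_card Ω hcard
    refine ⟨w.1, (hK₁iff _).2 ?_, w.2.2⟩
    have h1 : z₀ * w.1 * z₀⁻¹ = w.1 := congrArg Subtype.val (hw ⟨z₀, Subgroup.mem_zpowers z₀⟩)
    exact mul_inv_eq_iff_eq_mul.mp h1
  have hK₁surj : ∀ g : SpecialLinearGroup (Fin 2) (ZMod p), g.1 1 0 = 0 → ∃ y ∈ K₁, σ y = g := by
    intro g hg
    obtain ⟨s, c, rfl⟩ := eq_dgT_mul_upT hg
    obtain ⟨j, hj⟩ : ∃ j : ℕ, t ^ j = s :=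
      (Submonoid.mem_powers_iff _ _).mp (mem_powers_iff_mem_zpowers.mpr (ht s))
    obtain ⟨u, huU, c₁, hc₁, hu⟩ := hu1
    have hσu : σ ⟨u, hUE huU⟩ = upT c₁ := Subtype.ext (huniq _ _ hu)
    obtain ⟨x', hx'K, hx'⟩ := hfix ⟨u, hUE huU⟩ huU
    refine ⟨⟨n, hnE⟩ ^ j * x' ^ (c / c₁).val, mul_mem (pow_mem ((hK₁iff _).2 hnz₀.symm.eq) _)
      (pow_mem hx'K _), ?_⟩
    rw [map_mul, map_pow, map_pow, hσn, dgT_pow, hj, hx', hσu, upT_pow, ZMod.natCast_zmod_val,
      div_mul_cancel₀ c hc₁]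
  -- translations commuting with `z₀` are trivial
  have hkill : ∀ (d : E) (hd : (d : G) ∈ W), d ∈ K₁ → τ ⟨d, hd⟩ = 1 := by
    intro d hd hdK
    have h1 := hsf z₀ ⟨d, hd⟩
    rw [← hσ, hσz₀, show act z₀ ⟨d, hd⟩ = ⟨d, hd⟩ from Subtype.ext (by
      show ((z₀ : E) : G) * d * ((z₀ : E) : G)⁻¹ = d
      have := congrArg (fun y : E => (y : G)) ((hK₁iff d).1 hdK)
      simp only [Subgroup.coe_mul] at this
      rw [this, mul_inv_cancel_right])] at h1
    set x := (τ ⟨d, hd⟩).toAdd with hx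
    apply Multiplicative.toAdd.injective
    funext i
    show x i = 0
    have h5 : x i = - x i := by
      have := congrFun h1 i
      fin_cases i <;> simpa [Matrix.mulVec, dotProduct, Fin.sum_univ_two] using this
    have h2 : (2 : ZMod p) * x i = 0 := by linear_combination h5
    refine (mul_eq_zero.mp h2).resolve_left fun h => neg_one_ne_one_zmod hp ?_
    linear_combination -h
  -- the semidirect product
  let φ : K₁ →* MulAut W :=
    (Subgroup.normalizerMonoidHom W).comp ((Subgroup.inclusion hEW).comp K₁.subtype)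
  have hφ : ∀ (y : K₁) (w : W), φ y w = act y w := fun _ _ => rfl
  let π : W ⋊[φ] K₁ →* H :=
    SemidirectProduct.lift (Subgroup.inclusion (hWU.trans hUH))
      ((Subgroup.inclusion hEH).comp K₁.subtype) fun y =>
      MonoidHom.ext fun w => Subtype.ext (by simp [hφ, act, MulAut.conj_apply])
  let Φ₀ : W ⋊[φ] K₁ →* Cfsg.qd p :=
    SemidirectProduct.lift (qdVec.comp τ) (qdLin.comp (σ.comp K₁.subtype)) fun y =>
      MonoidHom.ext fun w => by
        simp only [MonoidHom.coe_comp, Function.comp_apply, MulEquiv.coe_toMonoidHom, MulAut.conj_apply,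
          Subgroup.coe_subtype]
        rw [eq_mul_inv_iff_mul_eq, qdLin_mul_qdVec, hσ, ← hsf, hφ]
        rfl
  have hmem : ∀ x, ((Φ₀ x : Cfsg.qd p) : SpecialLinearGroup (Fin 3) (ZMod p)) ∈ Cfsg.fOver (ZMod p) := by
    intro x
    rw [← SemidirectProduct.inl_left_mul_inr_right x, map_mul, Subgroup.coe_mul]
    have h0 := hsf0 (x.right : E)
    refine mul_mem (Subgroup.subset_closure ?_) (Subgroup.subset_closure ?_)
    · refine ⟨?_, ?_, ?_, ?_⟩ <;> simp [Φ₀, qdVec, CfsgLib.QdRankTwo.qM]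
    · refine ⟨?_, ?_, ?_, ?_⟩ <;> simp [Φ₀, qdLin, CfsgLib.QdRankTwo.qM, hσ, h0]
  let Φ : W ⋊[φ] K₁ →* Cfsg.fOver (ZMod p) := ((Cfsg.qd p).subtype.comp Φ₀).codRestrict _ hmem
  have hΦ : Function.Surjective Φ := by
    rw [← MonoidHom.range_eq_top, eq_top_iff]
    rintro ⟨M, hM⟩ -
    have key : Cfsg.fOver (ZMod p) ≤ ((Cfsg.qd p).subtype.comp Φ₀).range := by
      unfold Cfsg.fOver
      rw [Subgroup.closure_le]
      rintro M ⟨h10, h20, h21, h22⟩
      have hd : M.1 0 0 * M.1 1 1 - M.1 0 1 * 0 = 1 := by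
        have := M.2
        rw [Matrix.det_fin_three, h10, h20, h21, h22] at this
        linear_combination this
      obtain ⟨y, hyK, hy⟩ := hK₁surj ⟨!![M.1 0 0, M.1 0 1; 0, M.1 1 1], by rw [det_fin_two]; simpa using hd⟩
        (by simp)
      obtain ⟨w, hw⟩ := hτ (Multiplicative.ofAdd ![M.1 0 2, M.1 1 2])
      refine ⟨SemidirectProduct.inl w * SemidirectProduct.inr ⟨y, hyK⟩, ?_⟩
      simp only [MonoidHom.coe_comp, Function.comp_apply, map_mul, Φ₀, SemidirectProduct.lift_inl,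
        SemidirectProduct.lift_inr, Subgroup.coe_subtype, hw, hy]
      apply Subtype.ext
      show (qdVec _).1.1 * (qdLin _).1.1 = M.1
      ext i j
      fin_cases i <;> fin_cases j <;>
        simp [qdVec, qdLin, CfsgLib.QdRankTwo.qM, h10, h20, h21, h22, Matrix.mul_apply,
          Fin.sum_univ_three]
    obtain ⟨x, hx⟩ := key hM
    exact ⟨x, Subtype.ext hx⟩
  refine involves_of_pair π Φ hΦ fun x hx => ?_
  have hx' : (x.left : G) * ((x.right : E) : G) = 1 := congrArg Subtype.val (MonoidHom.mem_ker.mp hx)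
  have hy : ((x.right : E) : G) ∈ W := by
    rw [eq_inv_of_mul_eq_one_right hx']
    exact inv_mem x.left.2
  have hk1 := hkill x.right hy x.right.2
  have h3 : τ x.left = 1 := by
    have : x.left = (⟨_, hy⟩ : W)⁻¹ := Subtype.ext (eq_inv_of_mul_eq_one_left hx')
    rw [this, map_inv, hk1, inv_one]
  have h4 : σ x.right = 1 := Subtype.ext (huniq _ _ fun w => by
    have h : τ (act (x.right : E) w) = τ w := by
      rw [show act (x.right : E) w = ⟨_, hy⟩ * w * ⟨_, hy⟩⁻¹ from Subtype.ext rfl, MonoidHom.map_mul,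
        MonoidHom.map_mul, MonoidHom.map_inv, hk1, one_mul, inv_one, mul_one]
    rw [h]
    exact (Matrix.one_mulVec _).symm)
  rw [MonoidHom.mem_ker]
  apply Subtype.ext
  show ((Φ₀ x : Cfsg.qd p) : SpecialLinearGroup (Fin 3) (ZMod p)) = 1
  rw [← SemidirectProduct.inl_left_mul_inr_right x, map_mul]
  simp [Φ₀, h3, h4]

/-- An eigenvector of order `p` from an eigenvector in a factor of an abelian `p`-group. -/
theorem exists_eigen {G : Type*} [Group G] [Finite G] {A A' : Subgroup G} (hA : IsMulCommutative A)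
    (hAp : IsPGroup p A) {n : G} (hnA : n ∈ Subgroup.normalizer (A : Set G)) (hA'A : A' ≤ A)
    (hnA' : n ∈ Subgroup.normalizer (A' : Set G)) {s : ℕ} {z : G} (hz : z ∈ A) (hz' : z ∉ A')
    (heig : n * z * n⁻¹ * (z ^ s)⁻¹ ∈ A') :
    ∃ c ∈ A, c ≠ 1 ∧ c ^ p = 1 ∧ n * c * n⁻¹ = c ^ s := by
  classical
  have hmem : ∀ {B : Subgroup G}, n ∈ Subgroup.normalizer (B : Set G) → ∀ x ∈ B,
      n * x * n⁻¹ * (x ^ s)⁻¹ ∈ B := fun {B} h x hx =>
    mul_mem ((Subgroup.mem_normalizer_iff.mp h x).mp hx) (inv_mem (pow_mem hx s))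
  have hc : ∀ x ∈ A, ∀ y ∈ A, x * y = y * x := fun x hx y hy =>
    congrArg Subtype.val (hA.is_comm.comm ⟨x, hx⟩ ⟨y, hy⟩)
  let θ : A →* A :=
    MonoidHom.mk (OneHom.mk (fun x => ⟨n * (x : G) * n⁻¹ * ((x : G) ^ s)⁻¹, hmem hnA x x.2⟩)
      (Subtype.ext (by simp))) fun x y => Subtype.ext (by
      show n * ((x : G) * y) * n⁻¹ * (((x : G) * y) ^ s)⁻¹ =
        n * (x : G) * n⁻¹ * ((x : G) ^ s)⁻¹ * (n * (y : G) * n⁻¹ * ((y : G) ^ s)⁻¹)
      have hy1 := (Subgroup.mem_normalizer_iff.mp hnA y).mp y.2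
      have hx2 := inv_mem (pow_mem x.2 s)
      have hy2 := inv_mem (pow_mem y.2 s)
      rw [(show Commute (x : G) y from hc _ x.2 _ y.2).mul_pow, _root_.mul_inv_rev,
        show n * ((x : G) * y) * n⁻¹ = n * (x : G) * n⁻¹ * (n * (y : G) * n⁻¹) by group,
        hc _ hy2 _ hx2]
      have h := hc _ hy1 _ hx2
      generalize n * (x : G) * n⁻¹ = a₁
      generalize n * (y : G) * n⁻¹ = b₁ at h ⊢
      generalize ((x : G) ^ s)⁻¹ = c₁ at h ⊢
      generalize ((y : G) ^ s)⁻¹ = d₁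
      rw [mul_assoc, mul_assoc a₁ c₁, ← mul_assoc b₁, h, mul_assoc c₁])
  by_cases hinj : Function.Injective θ
  · exfalso
    let θ' : A' → A' := fun x => ⟨n * (x : G) * n⁻¹ * ((x : G) ^ s)⁻¹, hmem hnA' x x.2⟩
    have hinj' : Function.Injective θ' := fun x y hxy => by
      have := congrArg Subtype.val (hinj (a₁ := ⟨x, hA'A x.2⟩) (a₂ := ⟨y, hA'A y.2⟩)
        (Subtype.ext (congrArg (fun w : A' => (w : G)) hxy)))
      exact Subtype.ext this
    obtain ⟨x, hx⟩ := Finite.surjective_of_injective hinj' ⟨_, heig⟩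
    have := congrArg Subtype.val (hinj (a₁ := ⟨x, hA'A x.2⟩) (a₂ := ⟨z, hz⟩)
      (Subtype.ext (congrArg (fun w : A' => (w : G)) hx)))
    have h' : (x : G) = z := this
    exact hz' (h' ▸ x.2)
  · have hne : θ.ker ≠ ⊥ := fun h => hinj ((MonoidHom.ker_eq_bot_iff θ).1 h)
    obtain ⟨j, hj⟩ := IsPGroup.iff_card.1 (hAp.to_subgroup θ.ker)
    have hj0 : j ≠ 0 := fun h => hne (Subgroup.card_eq_one.1 (by rw [hj, h, pow_zero]))
    obtain ⟨c, hc⟩ := exists_prime_orderOf_dvd_card' (G := θ.ker) p (by rw [hj]; exact dvd_pow_self p hj0)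
    have ho : orderOf ((c : A) : G) = p := by rw [Subgroup.orderOf_coe, Subgroup.orderOf_coe, hc]
    refine ⟨((c : A) : G), (c : A).2, fun h => ?_, ?_, ?_⟩
    · rw [h, orderOf_one] at ho
      exact hpf.out.ne_one ho.symm
    · conv_lhs => rw [← ho]
      exact pow_orderOf_eq_one _
    · exact mul_inv_eq_one.mp (congrArg Subtype.val (MonoidHom.mem_ker.mp c.2))

end CfsgLib.ZJFailure
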