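import Cfsg.Agent.QdSection.Main
import Cfsg.Agent.ZJFailure.Involve

/-!
An irreducible module over the prime field for a group generated by two quadratically acting elements: a
faithful two-dimensional representation over the algebraic closure, the braid partner, and coordinates.
-/

set_option autoImplicit false

namespace CfsgLib.ZJFailure

open Matrix
open CfsgLib.QdSection
open CfsgLib.GlaubermanZJ (mem_of_closure_pair pow_p_eq_one)

section Planar

variable {K : Type*} [Field K] {H : Type*} [Group H]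

/-- Two quadratic generators without a common fixed vector and with no invariant subspace act on a plane,
by unimodular matrices. -/
theorem exists_planar [IsAlgClosed K] [Finite H] {a b : H}
    (hgen : Subgroup.closure ({a, b} : Set H) = ⊤)
    {W : Type*} [AddCommGroup W] [Module K W] [FiniteDimensional K W] [Nontrivial W]
    (ρ : H →* Module.End K W) (ha : (ρ a - 1) * (ρ a - 1) = 0) (hb : (ρ b - 1) * (ρ b - 1) = 0)
    (hred : ∀ U : Submodule K W, (∀ h : H, ∀ v ∈ U, ρ h v ∈ U) → U = ⊥ ∨ U = ⊤)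
    (hAB : ∀ w : W, ρ a w = w → ρ b w = w → w = 0) :
    ∃ φ : H →* SpecialLinearGroup (Fin 2) K, ∀ h : H, φ h = 1 ↔ ρ h = 1 := by
  set A := LinearMap.ker (ρ a - 1) with hA
  set B := LinearMap.ker (ρ b - 1) with hB
  have memA : ∀ v, v ∈ A ↔ ρ a v = v := fun v => by simp [hA, sub_eq_zero]
  have memB : ∀ v, v ∈ B ↔ ρ b v = v := fun v => by simp [hB, sub_eq_zero]
  have hAB' : A ⊓ B = ⊥ := (Submodule.eq_bot_iff _).2 fun w hw =>
    hAB w ((memA w).1 hw.1) ((memB w).1 hw.2)
  have hrkA : LinearMap.range (ρ a - 1) ≤ A := by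
    rintro _ ⟨v, rfl⟩; exact LinearMap.congr_fun ha v
  have hrkB : LinearMap.range (ρ b - 1) ≤ B := by
    rintro _ ⟨v, rfl⟩; exact LinearMap.congr_fun hb v
  have e1 := (ρ a - 1).finrank_range_add_finrank_ker
  have e2 := (ρ b - 1).finrank_range_add_finrank_ker
  have e3 := Submodule.finrank_mono hrkA
  have e4 := Submodule.finrank_mono hrkB
  have e5 := Submodule.finrank_sup_add_finrank_inf_eq A B
  have e6 := Submodule.finrank_le (A ⊔ B)
  rw [hAB', finrank_bot] at e5
  rw [← hA] at e1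
  rw [← hB] at e2
  have hsup : A ⊔ B = ⊤ := Submodule.eq_top_of_finrank_eq (by omega)
  -- an eigenvector of `a b`
  obtain ⟨lam, hlam⟩ := Module.End.exists_eigenvalue (ρ (a * b))
  obtain ⟨v, hv, hv0⟩ := hlam.exists_hasEigenvector
  rw [Module.End.mem_eigenspace_iff] at hv
  obtain ⟨x, hx, y, hy, rfl⟩ := Submodule.mem_sup.1 (hsup ▸ Submodule.mem_top : v ∈ A ⊔ B)
  have hax := (memA x).1 hx
  have hby := (memB y).1 hy
  set N : W := ρ b x - x with hN
  set M : W := ρ a y - y with hM
  have hNB : N ∈ B := hrkB ⟨x, rfl⟩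
  have hMA : M ∈ A := hrkA ⟨y, rfl⟩
  set MN : W := ρ a N - N with hMN
  have hMNA : MN ∈ A := hrkA ⟨N, rfl⟩
  have hexp : ρ (a * b) (x + y) = (x + M + MN) + (N + y) := by
    rw [map_mul, Module.End.mul_apply, map_add, hby, show ρ b x = x + N by rw [hN]; abel, map_add, map_add,
      hax, hMN, hM]
    abel
  rw [hexp, smul_add] at hv
  have hsplit : x + M + MN = lam • x ∧ N + y = lam • y := by
    have h0 : x + M + MN - lam • x = lam • y - (N + y) := by
      rw [sub_eq_sub_iff_add_eq_add, hv]; abel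
    have hm : x + M + MN - lam • x ∈ A ⊓ B := by
      refine ⟨A.sub_mem (A.add_mem (A.add_mem hx hMA) hMNA) (A.smul_mem _ hx), ?_⟩
      rw [SetLike.mem_coe, h0]
      exact B.sub_mem (B.smul_mem _ hy) (B.add_mem hNB hy)
    rw [hAB', Submodule.mem_bot] at hm
    exact ⟨sub_eq_zero.1 hm, (sub_eq_zero.1 (h0 ▸ hm : lam • y - (N + y) = 0)).symm⟩
  obtain ⟨hA2, hB2⟩ := hsplit
  have hNy : N = (lam - 1) • y := by rw [sub_smul, one_smul, ← hB2]; abel
  have hMNy : MN = (lam - 1) • M := by
    rw [hMN, hNy, map_smul, ← smul_sub, hM]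
  have hlam0 : lam ≠ 0 := by
    rintro rfl
    have h1 : ρ (a * b) (x + y) = 0 := by rw [hexp, hv]; simp
    have h2 := congrArg (fun w => ρ ((a * b)⁻¹) w) h1
    simp only [map_zero] at h2
    rw [← Module.End.mul_apply, ← map_mul, inv_mul_cancel, map_one, Module.End.one_apply] at h2
    exact hv0 h2
  have hMx : M = ((lam - 1) / lam) • x := by
    have h1 : lam • M = (lam - 1) • x := by
      rw [sub_smul, one_smul, ← hA2, hMNy, sub_smul, one_smul]; abel
    rw [div_eq_inv_mul, ← smul_smul, ← h1, smul_smul, inv_mul_cancel₀ hlam0, one_smul]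
  -- the invariant plane
  set P : Submodule K W := Submodule.span K (Set.range ![x, y]) with hP
  have hxP : x ∈ P := Submodule.subset_span ⟨0, rfl⟩
  have hyP : y ∈ P := Submodule.subset_span ⟨1, rfl⟩
  have hay : ρ a y = ((lam - 1) / lam) • x + y := by rw [← hMx, hM]; abel
  have hbx : ρ b x = x + (lam - 1) • y := by rw [← hNy, hN]; abel
  have hPab : ∀ g : H, (ρ g x ∈ P ∧ ρ g y ∈ P) → ∀ w ∈ P, ρ g w ∈ P := by
    intro g hg w hw
    have : P ≤ P.comap (ρ g) := by
      rw [hP, Submodule.span_le]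
      rintro _ ⟨i, rfl⟩
      fin_cases i
      · exact hg.1
      · exact hg.2
    exact this hw
  have hPinv : ∀ h : H, ∀ w ∈ P, ρ h w ∈ P :=
    mem_of_closure_pair hgen (P := fun h => ∀ w ∈ P, ρ h w ∈ P) (fun w hw => by simpa using hw)
      (fun g g' hg hg' w hw => by rw [map_mul]; exact hg _ (hg' w hw))
      (hPab a ⟨by rwa [hax], by rw [hay]; exact P.add_mem (P.smul_mem _ hxP) hyP⟩)
      (hPab b ⟨by rw [hbx]; exact P.add_mem hxP (P.smul_mem _ hyP), by rwa [hby]⟩)
  have hPtop : P = ⊤ := by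
    refine (hred P hPinv).resolve_left fun h => hv0 ?_
    have hx0 : x ∈ P := hxP
    have hy0 : y ∈ P := hyP
    rw [h, Submodule.mem_bot] at hx0 hy0
    rw [hx0, hy0, add_zero]
  have hfr : Module.finrank K W ≤ 2 := by
    rw [← finrank_top K W, ← hPtop, hP]
    exact (finrank_range_le_card _).trans_eq (Fintype.card_fin 2)
  have hpos : 0 < Module.finrank K W := Module.finrank_pos
  have hfr2 : Module.finrank K W = 2 := by omega
  have hli : LinearIndependent K ![x, y] :=
    (linearIndependent_iff_card_le_finrank_span).2 (by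
      show Fintype.card (Fin 2) ≤ Module.finrank K P
      rw [hPtop, finrank_top, hfr2, Fintype.card_fin])
  let e : Module.Basis (Fin 2) K W := Module.Basis.mk hli hPtop.ge
  have he0 : e 0 = x := by simp [e]
  have he1 : e 1 = y := by simp [e]
  have hdet : ∀ h : H, (LinearMap.toMatrix e e (ρ h)).det = 1 :=
    mem_of_closure_pair hgen (by simp) (fun g g' hg hg' => by
      rw [map_mul, LinearMap.toMatrix_mul, det_mul, hg, hg', one_mul]) (by
        rw [det_fin_two]
        simp only [LinearMap.toMatrix_apply, he0, he1]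
        rw [hax, hay, map_add, map_smul, ← he0, ← he1]
        simp) (by
        rw [det_fin_two]
        simp only [LinearMap.toMatrix_apply, he0, he1]
        rw [hby, hbx, map_add, map_smul, ← he0, ← he1]
        simp)
  let φ : H →* SpecialLinearGroup (Fin 2) K :=
    { toFun := fun h => ⟨LinearMap.toMatrix e e (ρ h), hdet h⟩
      map_one' := Subtype.ext (by simp)
      map_mul' := fun g g' => Subtype.ext (by
        show LinearMap.toMatrix e e (ρ (g * g')) = _
        rw [map_mul, LinearMap.toMatrix_mul]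
        rfl) }
  refine ⟨φ, fun h => ⟨fun h1 => ?_, fun h1 => ?_⟩⟩
  · have h2 : LinearMap.toMatrix e e (ρ h) = LinearMap.toMatrix e e 1 := by
      rw [LinearMap.toMatrix_one]
      exact congrArg Subtype.val h1
    exact (LinearMap.toMatrix e e).injective h2
  · apply Subtype.ext
    show LinearMap.toMatrix e e (ρ h) = 1
    rw [h1, LinearMap.toMatrix_one]

end Planar

section Bar

variable {p : ℕ} [hpf : Fact p.Prime]

/-- A common fixed vector over the algebraic closure yields one over the prime field. -/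
theorem exists_common_fixed {W : Type*} [AddCommGroup W] [Module (ZMod p) W] [Finite W] {n : ℕ}
    (Φ : Module.End (ZMod p) W →+* Module.End (AlgebraicClosure (ZMod p)) (Fin n → AlgebraicClosure (ZMod p)))
    {ι : Type*} [Finite ι] (f : ι → Module.End (ZMod p) W) {w : Fin n → AlgebraicClosure (ZMod p)}
    (hw : w ≠ 0) (hfix : ∀ i, Φ (f i) w = w) : ∃ u : W, u ≠ 0 ∧ ∀ i, f i u = u := by
  classical
  haveI := Fintype.ofFinite ι
  by_contra hno
  set D : W →ₗ[ZMod p] (ι → W) := LinearMap.pi fun i => f i - 1 with hD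
  have hinj : LinearMap.ker D = ⊥ := (Submodule.eq_bot_iff _).2 fun u hu => by
    by_contra hu0
    exact hno ⟨u, hu0, fun i => sub_eq_zero.1 (by
      have := congrFun (LinearMap.mem_ker.1 hu) i
      simpa [hD] using this)⟩
  obtain ⟨L, hL⟩ := D.exists_leftInverse_of_injective hinj
  have hsum : ∑ i, L.comp (LinearMap.single (ZMod p) (fun _ : ι => W) i) * (f i - 1) = 1 := by
    refine LinearMap.ext fun u => ?_
    rw [LinearMap.sum_apply]
    simp only [Module.End.mul_apply, LinearMap.comp_apply]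
    rw [← map_sum, Module.End.one_apply]
    conv_rhs => rw [← LinearMap.id_apply (R := ZMod p) u, ← hL, LinearMap.comp_apply]
    congr 1
    funext j
    simp [hD, Finset.sum_apply, Pi.single_apply, LinearMap.single_apply]
  refine hw ?_
  have h := congrArg (fun φ => Φ φ w) hsum
  simp only [map_sum, map_mul, map_sub, map_one, LinearMap.sum_apply, Module.End.mul_apply,
    LinearMap.sub_apply, Module.End.one_apply, hfix, sub_self, map_zero, Finset.sum_const_zero] at h
  exact h.symm

variable {Y : Type*} [Group Y] [Finite Y] {a b : Y}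

/-- A faithful planar representation of a nontrivial irreducible quadratic pair. -/
theorem exists_faithful_planar (hgen : Subgroup.closure ({a, b} : Set Y) = ⊤)
    {W : Type*} [AddCommGroup W] [Module (ZMod p) W] [Finite W] [Nontrivial W]
    (ρ : Y →* Module.End (ZMod p) W)
    (hirr : ∀ U : Submodule (ZMod p) W, (∀ y : Y, ∀ w ∈ U, ρ y w ∈ U) → U = ⊥ ∨ U = ⊤)
    (ha : (ρ a - 1) * (ρ a - 1) = 0) (hb : (ρ b - 1) * (ρ b - 1) = 0) (hnt : ∃ y, ρ y ≠ 1) :
    ∃ φ : Y →* SpecialLinearGroup (Fin 2) (AlgebraicClosure (ZMod p)), ∀ y, φ y = 1 ↔ ρ y = 1 := by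
  classical
  obtain ⟨n, Φ, hΦ⟩ := exists_extension p W
  set ρb := Φ.toMonoidHom.comp ρ with hρb
  have hq : ∀ {x : Y}, (ρ x - 1) * (ρ x - 1) = 0 → (ρb x - 1) * (ρb x - 1) = 0 := fun {x} hx => by
    show (Φ (ρ x) - 1) * (Φ (ρ x) - 1) = 0
    rw [← map_one Φ, ← map_sub, ← map_mul, hx, map_zero]
  let L := AlgebraicClosure (ZMod p)
  have hn : 0 < n := by
    by_contra h
    obtain rfl : n = 0 := by omega
    obtain ⟨w, hw⟩ := exists_ne (0 : W)
    have h01 : (0 : Module.End (ZMod p) W) = 1 :=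
      hΦ (LinearMap.ext fun v => Subsingleton.elim _ _)
    exact hw (LinearMap.congr_fun h01 w).symm
  -- a smallest invariant subspace
  have hex : ∃ k : ℕ, ∃ U : Submodule L (Fin n → L), U ≠ ⊥ ∧ (∀ y, ∀ w ∈ U, ρb y w ∈ U) ∧
      Module.finrank L U = k := by
    refine ⟨_, ⊤, ?_, fun _ _ _ => Submodule.mem_top, rfl⟩
    rw [Ne, ← Submodule.finrank_eq_zero (R := L), finrank_top, Module.finrank_pi]
    simp [Fintype.card_fin, hn.ne']
  obtain ⟨U, hU0, hU, hUk⟩ := Nat.find_spec hex
  haveI : Nontrivial U := Submodule.nontrivial_iff_ne_bot.2 hU0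
  let ρ₁ : Y →* Module.End L U :=
    { toFun := fun h => (ρb h).restrict (hU h)
      map_one' := LinearMap.ext fun v => Subtype.ext (by simp [LinearMap.restrict_apply])
      map_mul' := fun x y => LinearMap.ext fun v => Subtype.ext (by simp [LinearMap.restrict_apply]) }
  have hq1 : ∀ {x : Y}, (ρ x - 1) * (ρ x - 1) = 0 → (ρ₁ x - 1) * (ρ₁ x - 1) = 0 := fun {x} hx =>
    LinearMap.ext fun v => Subtype.ext (by
      simpa [ρ₁, LinearMap.restrict_apply] using LinearMap.congr_fun (hq hx) (v : Fin n → L))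
  -- fixed vectors of a normal subgroup
  have hfixN : ∀ N : Subgroup Y, N.Normal → ∀ w : Fin n → L, w ≠ 0 → (∀ m ∈ N, ρb m w = w) →
      ∀ m ∈ N, ρ m = 1 := by
    intro N hN w hw hfix
    obtain ⟨u, hu0, hu⟩ := exists_common_fixed Φ (fun m : N => ρ m) hw fun m => hfix m m.2
    let F : Submodule (ZMod p) W := ⨅ m : N, LinearMap.ker (ρ m - 1)
    have hF : ∀ v, v ∈ F ↔ ∀ m : N, ρ m v = v := fun v => by simp [F, sub_eq_zero]
    rcases hirr F (fun y v hv => (hF _).2 fun m => by
      have h1 : (y⁻¹ * m * y : Y) ∈ N := by simpa using hN.conj_mem m m.2 y⁻¹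
      calc ρ m (ρ y v) = ρ y (ρ (y⁻¹ * m * y) v) := by
            rw [← Module.End.mul_apply, ← map_mul, ← Module.End.mul_apply, ← map_mul]; congr 2; group
        _ = ρ y v := by rw [(hF v).1 hv ⟨_, h1⟩]) with h | h
    · exact absurd ((Submodule.mem_bot _).1 (h ▸ (hF u).2 hu : u ∈ (⊥ : Submodule (ZMod p) W))) hu0
    · exact fun m hm => LinearMap.ext fun v => (hF v).1 (h ▸ Submodule.mem_top) ⟨m, hm⟩
  have hAB : ∀ w : U, ρ₁ a w = w → ρ₁ b w = w → w = 0 := by
    intro w h1 h2
    by_contra hw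
    obtain ⟨y, hy⟩ := hnt
    refine hy (hfixN ⊤ inferInstance w (fun h => hw (Subtype.ext h)) (fun m _ => ?_) y (Subgroup.mem_top y))
    exact mem_of_closure_pair hgen (P := fun m => ρb m (w : Fin n → L) = w) (by simp)
      (fun x z hx hz => by rw [map_mul, Module.End.mul_apply, hz, hx])
      (congrArg Subtype.val h1) (congrArg Subtype.val h2) m
  have hred : ∀ V : Submodule L U, (∀ h : Y, ∀ v ∈ V, ρ₁ h v ∈ V) → V = ⊥ ∨ V = ⊤ := by
    intro V hV
    by_contra hne
    push Not at hne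
    have h0 : V.map U.subtype ≠ ⊥ := fun h => hne.1 (Submodule.map_injective_of_injective
      U.subtype_injective (by rw [h, Submodule.map_bot]))
    refine Nat.find_min hex (m := Module.finrank L (V.map U.subtype)) ?_ ⟨_, h0, ?_, rfl⟩
    · rw [← hUk, Submodule.finrank_map_subtype_eq]
      exact Submodule.finrank_lt hne.2
    · rintro y _ ⟨v, hv, rfl⟩
      exact ⟨ρ₁ y v, hV y v hv, rfl⟩
  obtain ⟨φ, hφ⟩ := exists_planar hgen ρ₁ (hq1 ha) (hq1 hb) hred hAB
  refine ⟨φ, fun y => (hφ y).trans ⟨fun h => ?_, fun h => ?_⟩⟩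
  · obtain ⟨w, hw⟩ := exists_ne (0 : U)
    refine hfixN φ.ker inferInstance w (fun h' => hw (Subtype.ext h')) (fun m hm => ?_) y ((hφ y).2 h)
    exact congrArg Subtype.val (LinearMap.congr_fun ((hφ m).1 hm) w)
  · refine LinearMap.ext fun v => Subtype.ext ?_
    show ρb y (v : Fin n → L) = v
    simp [ρb, h]

omit [Finite Y] in
/-- An involution of `SL(2)` is `-1`. -/
theorem eq_neg_one_of_sq_eq_one {K : Type*} [Field K] (h2 : (2 : K) ≠ 0)
    {g : SpecialLinearGroup (Fin 2) K} (hg : g ^ 2 = 1) (hne : g ≠ 1) : g = -1 := by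
  have h : g⁻¹ = g := by rw [inv_eq_iff_mul_eq_one, ← pow_two, hg]
  have he₀ : ∀ i j, (g⁻¹).1 i j = g.1 i j := fun i j => by rw [h]
  have he : ∀ i j, g.1.adjugate i j = g.1 i j := fun i j => he₀ i j
  simp only [Matrix.adjugate_fin_two] at he
  have h00 : g.1 1 1 = g.1 0 0 := by simpa using he 0 0
  have h01 : g.1 0 1 = 0 := by
    have := he 0 1
    simp at this
    have h4 : (2 : K) * g.1 0 1 = 0 := by linear_combination -this
    exact (mul_eq_zero.mp h4).resolve_left h2
  have h10 : g.1 1 0 = 0 := by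
    have := he 1 0
    simp at this
    have h4 : (2 : K) * g.1 1 0 = 0 := by linear_combination -this
    exact (mul_eq_zero.mp h4).resolve_left h2
  have hd : g.1 0 0 * g.1 0 0 = 1 := by
    have := g.2
    rw [det_fin_two, h01, h00, zero_mul, sub_zero] at this
    exact this
  rcases mul_self_eq_one_iff.mp hd with h0 | h0
  · refine absurd (Subtype.ext ?_) hne
    ext i j
    fin_cases i <;> fin_cases j <;> simp [h00, h01, h10, h0]
  · apply Subtype.ext
    ext i j
    fin_cases i <;> fin_cases j <;> simp [h00, h01, h10, h0]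

/-- The braid partner of `a` and an element of the subgroup it generates with `a` which acts as `-1`. -/
theorem exists_braid_partner (hp : p ≠ 2) (hgen : Subgroup.closure ({a, b} : Set Y) = ⊤)
    {W : Type*} [AddCommGroup W] [Module (ZMod p) W] [Finite W] [Nontrivial W]
    (ρ : Y →* Module.End (ZMod p) W)
    (hirr : ∀ U : Submodule (ZMod p) W, (∀ y : Y, ∀ w ∈ U, ρ y w ∈ U) → U = ⊥ ∨ U = ⊤)
    (ha : (ρ a - 1) * (ρ a - 1) = 0) (hb : (ρ b - 1) * (ρ b - 1) = 0) (hnt : ∃ y, ρ y ≠ 1) :
    ∃ x : Y, ρ a * ρ (x * a * x⁻¹) * ρ a = ρ (x * a * x⁻¹) * ρ a * ρ (x * a * x⁻¹) ∧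
      ρ a ≠ ρ (x * a * x⁻¹) ∧
      ∃ z ∈ Subgroup.closure ({a, x * a * x⁻¹} : Set Y), (∃ k : ℕ, z ^ 2 ^ k = 1) ∧ ρ z = -1 := by
  classical
  haveI : CharP (Module.End (ZMod p) W) p :=
    charP_of_injective_algebraMap (algebraMap (ZMod p) _).injective p
  obtain ⟨φ, hφ⟩ := exists_faithful_planar hgen ρ hirr ha hb hnt
  have hiff : ∀ y y' : Y, φ y = φ y' ↔ ρ y = ρ y' := by
    intro y y'
    have key := hφ (y'⁻¹ * y)
    rw [map_mul, map_inv, inv_mul_eq_one, map_mul] at key
    refine ⟨fun h => ?_, fun h => (key.2 ?_).symm⟩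
    · calc ρ y = ρ y' * (ρ y'⁻¹ * ρ y) := by rw [← mul_assoc, ← map_mul, mul_inv_cancel, map_one, one_mul]
        _ = ρ y' := by rw [key.1 h.symm, mul_one]
    · rw [h, ← map_mul, inv_mul_cancel, map_one]
  have hpa : φ a ^ p = 1 := by rw [← map_pow, hφ, map_pow, pow_p_eq_one ha]
  have hpb : φ b ^ p = 1 := by rw [← map_pow, hφ, map_pow, pow_p_eq_one hb]
  haveI : Finite φ.range := Finite.of_surjective _ φ.rangeRestrict_surjective
  have hrange : φ.range = Subgroup.closure {φ a, φ b} := by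
    rw [← Set.image_pair, ← MonoidHom.map_closure, hgen, MonoidHom.range_eq_map]
  have hrnp : ¬ IsPGroup p φ.range := by
    intro hP
    set f := ρ.toHomUnits.rangeRestrict with hf
    have hfs : Function.Surjective f := ρ.toHomUnits.rangeRestrict_surjective
    haveI : Finite ρ.toHomUnits.range := Finite.of_surjective f hfs
    have hQ : IsPGroup p (⊤ : Subgroup ρ.toHomUnits.range) := by
      refine IsPGroup.of_equiv (G := ρ.toHomUnits.range) (fun g => ?_) Subgroup.topEquiv.symm
      obtain ⟨y, rfl⟩ := hfs g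
      obtain ⟨k, hk⟩ := hP ⟨φ y, y, rfl⟩
      refine ⟨k, ?_⟩
      have h1 : φ (y ^ p ^ k) = 1 := by
        rw [map_pow]; simpa using congrArg Subtype.val hk
      rw [← map_pow]
      apply imageRep_injective ρ
      rw [imageRep_apply, (hφ _).1 h1, map_one]
    obtain ⟨y, hy⟩ := hnt
    refine hy ?_
    have h := eq_one_of_mem_normal_pgroup (imageRep ρ) (imageRep_injective ρ)
      (fun U hU => hirr U fun y w hw => hU (f y) w hw) hQ (Subgroup.mem_top (f y))
    rw [← imageRep_apply ρ y, ← hf, h, map_one]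
  have hfa1 : φ a ≠ 1 := by
    intro h
    refine hrnp ?_
    rw [hrange, h, Subgroup.closure_insert_one, ← Subgroup.zpowers_eq_closure]
    exact isPGroup_zpowers_of_pow hpb
  obtain ⟨_, ⟨x, rfl⟩, hbr⟩ := hasBraid_of_closure hp hrange hpa hpb hfa1 hrnp
  set b' := x * a * x⁻¹ with hb'
  have hφb' : φ b' = φ x * φ a * (φ x)⁻¹ := by rw [hb', map_mul, map_mul, map_inv]
  rw [← hφb'] at hbr
  refine ⟨x, ?_, fun h => hbr.2 ((hiff _ _).2 h), ?_⟩
  · simp only [← map_mul]
    refine (hiff _ _).1 ?_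
    simpa only [hb', map_mul, map_inv] using hbr.1
  set y := a * b' * a with hy
  set g := φ y with hg
  have hgE : g = φ a * φ b' * φ a := by rw [hg, hy, map_mul, map_mul]
  have h1 : g * φ a * g⁻¹ = φ b' := hgE ▸ hbr.conj_eq
  have h2 : g * φ b' * g⁻¹ = φ a := by
    rw [mul_inv_eq_iff_eq_mul, hgE]
    calc φ a * φ b' * φ a * φ b' = φ a * (φ b' * φ a * φ b') := by simp only [mul_assoc]
      _ = φ a * (φ a * φ b' * φ a) := by rw [hbr.1]
  have hog : IsOfFinOrder g := MonoidHom.isOfFinOrder φ (isOfFinOrder_of_finite y)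
  have heven : Even (orderOf g) := by
    by_contra hodd
    obtain ⟨m, hm⟩ := Nat.not_even_iff_odd.1 hodd
    have hc : Commute (g ^ 2) (φ a) := by
      show g ^ 2 * φ a = φ a * g ^ 2
      rw [← mul_inv_eq_iff_eq_mul, pow_two, _root_.mul_inv_rev]
      calc g * g * φ a * (g⁻¹ * g⁻¹) = g * (g * φ a * g⁻¹) * g⁻¹ := by simp only [mul_assoc]
        _ = φ a := by rw [h1, h2]
    have hgm : g = (g ^ 2) ^ (m + 1) := by
      rw [← pow_mul, show 2 * (m + 1) = orderOf g + 1 by omega, pow_succ, pow_orderOf_eq_one, one_mul]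
    have hc2 : Commute g (φ a) := by rw [hgm]; exact hc.pow_left _
    refine hbr.2 ?_
    rw [← h1, hc2.eq, mul_inv_cancel_right]
  obtain ⟨r, hr⟩ := heven
  have hr0 : 0 < r := by
    have := hog.orderOf_pos
    omega
  set z₁ := y ^ r with hz₁
  have hφz₁ : φ z₁ = -1 := by
    rw [hz₁, map_pow]
    refine eq_neg_one_of_sq_eq_one ?_ ?_ ?_
    · intro h
      refine neg_one_ne (K := AlgebraicClosure (ZMod p)) hp ?_
      linear_combination -h
    · rw [← pow_mul, show r * 2 = orderOf g by omega, ← hg, pow_orderOf_eq_one]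
    · intro h
      have h3 : g ^ r = 1 := h
      have := orderOf_le_of_pow_eq_one hr0 h3
      omega
  obtain ⟨k, m, hm, hkm⟩ := Nat.exists_eq_two_pow_mul_odd (n := orderOf z₁) (orderOf_pos z₁).ne'
  have hzmem : z₁ ^ m ∈ Subgroup.closure ({a, b'} : Set Y) := by
    have ha' : a ∈ Subgroup.closure ({a, b'} : Set Y) := Subgroup.subset_closure (Set.mem_insert _ _)
    have hb'' : b' ∈ Subgroup.closure ({a, b'} : Set Y) :=
      Subgroup.subset_closure (Set.mem_insert_of_mem _ rfl)
    exact pow_mem (pow_mem (mul_mem (mul_mem ha' hb'') ha') _) _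
  refine ⟨z₁ ^ m, hzmem, ⟨k, by rw [← pow_mul, mul_comm, ← hkm, pow_orderOf_eq_one]⟩, ?_⟩
  have hφz : φ (z₁ ^ m) = -1 := by rw [map_pow, hφz₁, hm.neg_one_pow]
  set z := z₁ ^ m
  have hz2 : ρ z * ρ z = 1 := by
    rw [← map_mul, ← hφ, map_mul, hφz, neg_mul_neg, one_mul]
  have hcomm : ∀ y : Y, ρ z * ρ y = ρ y * ρ z := fun y => by
    rw [← map_mul, ← map_mul, ← hiff, map_mul, map_mul, hφz, neg_one_mul, mul_neg_one]
  let F : Submodule (ZMod p) W := LinearMap.ker (ρ z - 1)
  have hF : ∀ v, v ∈ F ↔ ρ z v = v := fun v => by simp [F, sub_eq_zero]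
  rcases hirr F (fun y w hw => (hF _).2 (by
    rw [← Module.End.mul_apply, hcomm, Module.End.mul_apply, (hF w).1 hw])) with h | h
  · refine LinearMap.ext fun v => ?_
    have hm' : ρ z v + v ∈ F := (hF _).2 (by
      rw [map_add, ← Module.End.mul_apply, hz2, Module.End.one_apply, add_comm])
    rw [h, Submodule.mem_bot] at hm'
    rw [LinearMap.neg_apply, Module.End.one_apply]
    exact eq_neg_of_add_eq_zero_left hm'
  · exfalso
    have h1' : φ z = 1 := (hφ z).2 (LinearMap.ext fun v => (hF v).1 (h ▸ Submodule.mem_top))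
    exact neg_one_ne_one_sl (K := AlgebraicClosure (ZMod p)) hp (hφz ▸ h1')

omit [Finite Y] in
/-- Coordinates for a braided irreducible pair. -/
theorem exists_coords [Finite Y] {W : Type*} [AddCommGroup W] [Module (ZMod p) W] [Nontrivial W]
    (hgen : Subgroup.closure ({a, b} : Set Y) = ⊤) (ρ : Y →* Module.End (ZMod p) W)
    (hirr : ∀ U : Submodule (ZMod p) W, (∀ y : Y, ∀ w ∈ U, ρ y w ∈ U) → U = ⊥ ∨ U = ⊤)
    (ha : (ρ a - 1) * (ρ a - 1) = 0) (hb : (ρ b - 1) * (ρ b - 1) = 0)
    (hbr : ρ a * ρ b * ρ a = ρ b * ρ a * ρ b) (hne : ρ a ≠ ρ b) :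
    ∃ (e : Module.Basis (Fin 2) (ZMod p) W) (σ : Y →* SpecialLinearGroup (Fin 2) (ZMod p)),
      (∀ y, LinearMap.toMatrix e e (ρ y) = (σ y).1) ∧ Function.Surjective σ ∧ σ a = upT (-1) := by
  have hAA : ∀ v, ρ a (ρ a v) = ρ a v + (ρ a v - v) := fun v => by
    have := LinearMap.congr_fun ha v
    simp only [Module.End.mul_apply, LinearMap.sub_apply, Module.End.one_apply, map_sub, LinearMap.zero_apply] at this
    rw [sub_eq_zero] at this
    rw [← sub_eq_iff_eq_add']
    exact this
  have hBB : ∀ v, ρ b (ρ b v) = ρ b v + (ρ b v - v) := fun v => by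
    have := LinearMap.congr_fun hb v
    simp only [Module.End.mul_apply, LinearMap.sub_apply, Module.End.one_apply, map_sub, LinearMap.zero_apply] at this
    rw [sub_eq_zero] at this
    rw [← sub_eq_iff_eq_add']
    exact this
  -- only zero is fixed by both
  have hfix : ∀ t, ρ a t = t → ρ b t = t → t = 0 := by
    intro t h1 h2
    let F : Submodule (ZMod p) W := LinearMap.ker (ρ a - 1) ⊓ LinearMap.ker (ρ b - 1)
    have hF : ∀ v, v ∈ F ↔ ρ a v = v ∧ ρ b v = v := fun v => by simp [F, sub_eq_zero]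
    have hall : ∀ x : Y, ∀ v ∈ F, ρ x v = v := fun x v hv =>
      mem_of_closure_pair hgen (P := fun y => ρ y v = v) (by simp)
        (fun y z hy hz => by rw [map_mul, Module.End.mul_apply, hz, hy]) ((hF v).1 hv).1 ((hF v).1 hv).2 x
    rcases hirr F (fun x v hv => by rw [hall x v hv]; exact hv) with h | h
    · have : t ∈ F := (hF t).2 ⟨h1, h2⟩
      rwa [h, Submodule.mem_bot] at this
    · exfalso
      refine hne (LinearMap.ext fun v => ?_)
      have := (hF v).1 (h ▸ Submodule.mem_top)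
      rw [this.1, this.2]
  obtain ⟨v, hv, hv0⟩ : ∃ v, ρ a v = v ∧ v ≠ 0 := by
    obtain ⟨x, hx⟩ := exists_ne (0 : W)
    by_cases h : ρ a x = x
    · exact ⟨x, h, hx⟩
    · exact ⟨ρ a x - x, by rw [map_sub, hAA]; abel, sub_ne_zero.mpr h⟩
  have hw : ρ a * ρ b * ρ a * ρ a = ρ b * (ρ a * ρ b * ρ a) := by
    conv_lhs => rw [hbr]
    simp only [mul_assoc]
  set u := ρ b v - v with hu
  set t := v + (ρ a u - u) with ht
  have hbw : ρ b (ρ a (ρ b v)) = ρ a (ρ b v) := by
    have h1 := LinearMap.congr_fun hw v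
    simp only [Module.End.mul_apply, hv] at h1
    exact h1.symm
  have hta : ρ a t = t := by rw [ht, map_add, map_sub, hv, hAA]; abel
  have htb : ρ b t = t := by
    have e : ρ a (ρ b v) = t + u := by
      rw [ht, hu, map_sub, hv]
      abel
    have hbu : ρ b u = u := by rw [hu, map_sub, hBB]; abel
    rw [e, map_add, hbu] at hbw
    exact add_right_cancel hbw
  have ht0 := hfix t hta htb
  have hau : ρ a u = u - v := by
    rw [ht] at ht0
    rw [eq_sub_iff_add_eq]
    calc ρ a u + v = u + (v + (ρ a u - u)) := by abel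
      _ = u := by rw [ht0, add_zero]
  have hbu : ρ b u = u := by rw [hu, map_sub, hBB]; abel
  have hbv : ρ b v = v + u := by rw [hu]; abel
  have hli : LinearIndependent (ZMod p) ![v, u] := by
    rw [LinearIndependent.pair_iff]
    intro s r hsr
    have h1 := congrArg (ρ a) hsr
    rw [map_add, map_smul, map_smul, hv, hau, smul_sub, map_zero] at h1
    have hr : r • v = 0 := by
      calc r • v = (s • v + r • u) - (s • v + (r • u - r • v)) := by abel
        _ = 0 := by rw [hsr, h1, sub_zero]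
    have hr0 := (smul_eq_zero.mp hr).resolve_right hv0
    rw [hr0, zero_smul, add_zero] at hsr
    exact ⟨(smul_eq_zero.mp hsr).resolve_right hv0, hr0⟩
  set S : Submodule (ZMod p) W := Submodule.span (ZMod p) (Set.range ![v, u]) with hS
  have hStop : S = ⊤ := by
    have hgenS : ∀ x : Y, (ρ x v ∈ S ∧ ρ x u ∈ S) → ∀ w ∈ S, ρ x w ∈ S := by
      intro x hx
      have : S ≤ S.comap (ρ x) := by
        rw [hS, Submodule.span_le]
        rintro _ ⟨i, rfl⟩
        fin_cases i
        · exact hx.1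
        · exact hx.2
      exact fun w hw => this hw
    have hvS : v ∈ S := Submodule.subset_span ⟨0, rfl⟩
    have huS : u ∈ S := Submodule.subset_span ⟨1, rfl⟩
    have hinv : ∀ x : Y, ∀ w ∈ S, ρ x w ∈ S :=
      mem_of_closure_pair hgen (P := fun x => ∀ w ∈ S, ρ x w ∈ S) (fun w hw => by simpa using hw)
        (fun y z hy hz w hw => by rw [map_mul]; exact hy _ (hz w hw))
        (hgenS a ⟨by rwa [hv], by rw [hau]; exact S.sub_mem huS hvS⟩)
        (hgenS b ⟨by rw [hbv]; exact S.add_mem hvS huS, by rwa [hbu]⟩)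
    refine (hirr S hinv).resolve_left fun h => hv0 ?_
    have : v ∈ S := Submodule.subset_span ⟨0, rfl⟩
    rwa [h, Submodule.mem_bot] at this
  let e : Module.Basis (Fin 2) (ZMod p) W := Module.Basis.mk hli hStop.ge
  have he0 : e 0 = v := by simp [e]
  have he1 : e 1 = u := by simp [e]
  have hMa : LinearMap.toMatrix e e (ρ a) = (upT (-1 : ZMod p)).1 := by
    ext i j
    fin_cases j <;> simp [LinearMap.toMatrix_apply, he0, he1, hv, hau] <;>
      fin_cases i <;> simp [← he0, ← he1, upT]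
  have hMb : LinearMap.toMatrix e e (ρ b) = (lowT (1 : ZMod p)).1 := by
    ext i j
    fin_cases j <;> simp [LinearMap.toMatrix_apply, he0, he1, hbv, hbu] <;>
      fin_cases i <;> simp [← he0, ← he1, lowT]
  have hdet : ∀ x : Y, (LinearMap.toMatrix e e (ρ x)).det = 1 :=
    mem_of_closure_pair hgen (by simp)
      (fun x y hx hy => by rw [map_mul, LinearMap.toMatrix_mul, det_mul, hx, hy, one_mul])
      (by rw [hMa]; exact (upT _).2) (by rw [hMb]; exact (lowT _).2)
  let σ : Y →* SpecialLinearGroup (Fin 2) (ZMod p) :=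
    { toFun := fun x => ⟨LinearMap.toMatrix e e (ρ x), hdet x⟩
      map_one' := Subtype.ext (by simp)
      map_mul' := fun x y => Subtype.ext (by
        show LinearMap.toMatrix e e (ρ (x * y)) = _
        rw [map_mul, LinearMap.toMatrix_mul]
        rfl) }
  have hsurj : σ.range = ⊤ :=
    eq_top_of_mem (neg_ne_zero.mpr one_ne_zero) one_ne_zero ⟨a, Subtype.ext hMa⟩ ⟨b, Subtype.ext hMb⟩
  exact ⟨e, σ, fun _ => rfl, MonoidHom.range_eq_top.mp hsurj, Subtype.ext hMa⟩

end Bar

end CfsgLib.ZJFailure
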