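import Cfsg.Agent.ZJFailure.Descent

/-!
The core applied to an elementary abelian section `B/N₀` of a subgroup `K`, with the outcome carried to the
group controlling the fusion.
-/

set_option autoImplicit false

namespace CfsgLib.ZJFailure

open Cfsg
open Matrix
open CfsgLib.QdSection
open CfsgLib.ConjFunctor
open scoped commutatorElement

variable {p : ℕ} [hpf : Fact p.Prime] {G : Type*} [Group G] [Finite G]

set_option maxHeartbeats 2000000 in
theorem conclusion_of_section (hp : p ≠ 2) {H K K₁ R B N₀ A₀ : Subgroup G}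
    (hRS : SylowIn p R K) (hRK₁ : R ≤ K₁) (hK₁K : K₁ < K)
    (hmax : ∀ L : Subgroup G, R ≤ L → L < K → L ≤ K₁)
    (hRH : R ≤ H) (hBR : B ≤ R) (hN₀B : N₀ ≤ B)
    (hKB : K ≤ Subgroup.normalizer (B : Set G)) (hKN₀ : K ≤ Subgroup.normalizer (N₀ : Set G))
    (hcomm : ∀ a ∈ B, ∀ b ∈ B, a * b * a⁻¹ * b⁻¹ ∈ N₀) (hpow : ∀ b ∈ B, b ^ p ∈ N₀)
    (hA₀B : A₀ ≤ B) (hA₀ab : IsMulCommutative A₀) (hK₁A₀ : K₁ ≤ Subgroup.normalizer (A₀ : Set G))
    {v : G} (hvA₀ : v ∈ A₀) (hRv : ∀ r ∈ R, r * v * r⁻¹ * v⁻¹ ∈ N₀)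
    (hgen : B ≤ N₀ ⊔ Subgroup.closure {x | ∃ k ∈ K, x = k * v * k⁻¹})
    (hx : ∃ x ∈ R, (∀ b ∈ B, x * (x * b * x⁻¹ * b⁻¹) * x⁻¹ * (x * b * x⁻¹ * b⁻¹)⁻¹ ∈ N₀) ∧
      ∃ b ∈ B, x * b * x⁻¹ * b⁻¹ ∉ N₀)
    (hctrl : ∀ U : Subgroup G, U ≤ R → ∀ h ∈ K₁, h ∈ Subgroup.normalizer (U : Set G) →
      ∃ n ∈ H, ∀ u ∈ U, n * u * n⁻¹ = h * u * h⁻¹) :
    Involves ↥(Cfsg.fOver (ZMod p)) ↥H ∧ ∃ c ∈ A₀, c ≠ 1 ∧ c ^ p = 1 ∧ ∃ n ∈ H, ∃ s : (ZMod p)ˣ,
      (∀ x : (ZMod p)ˣ, x ∈ Subgroup.zpowers s) ∧ n * c * n⁻¹ = c ^ (s : ZMod p).val := by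
  classical
  have hBK : B ≤ K := hBR.trans hRS.1
  -- the section as a module
  set N := N₀.subgroupOf B with hN
  haveI : N.Normal := Subgroup.normal_subgroupOf_of_le_normalizer (hBK.trans hKN₀)
  let Q := ↥B ⧸ N
  letI instQ : CommGroup Q :=
    { (inferInstance : Group Q) with
      mul_comm := by
        intro a b
        obtain ⟨a, rfl⟩ := QuotientGroup.mk'_surjective N a
        obtain ⟨b, rfl⟩ := QuotientGroup.mk'_surjective N b
        rw [← commutatorElement_eq_one_iff_mul_comm, ← map_commutatorElement, QuotientGroup.mk'_apply,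
          QuotientGroup.eq_one_iff]
        show ((⁅a, b⁆ : B) : G) ∈ N₀
        simpa [commutatorElement_def] using hcomm _ a.2 _ b.2 }
  have hpQ : ∀ x : Additive Q, p • x = 0 := fun x => by
    apply Additive.toMul.injective
    obtain ⟨b, hb⟩ := QuotientGroup.mk'_surjective N (Additive.toMul x)
    rw [toMul_nsmul, ← hb, ← map_pow, toMul_zero, QuotientGroup.mk'_apply, QuotientGroup.eq_one_iff]
    exact hpow _ b.2
  letI : Module (ZMod p) (Additive Q) := AddCommGroup.zmodModule (n := p) hpQ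
  haveI : Finite (Additive Q) := inferInstanceAs (Finite Q)
  let act : K →* MulAut B := (Subgroup.normalizerMonoidHom B).comp (Subgroup.inclusion hKB)
  have hact : ∀ (k : K) (b : B), ((act k b : B) : G) = k * b * (k : G)⁻¹ := fun _ _ => rfl
  have hactN : ∀ k : K, N.map (act k).toMonoidHom = N := by
    intro k
    ext b
    constructor
    · rintro ⟨b, hb, rfl⟩
      exact (Subgroup.mem_normalizer_iff.mp (hKN₀ k.2) (b : G)).mp hb
    · intro hb
      refine ⟨(act k)⁻¹ b, ?_, by simp⟩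
      show (((act k)⁻¹ b : B) : G) ∈ N₀
      rw [← map_inv, hact]
      simpa using (Subgroup.mem_normalizer_iff.mp (inv_mem (hKN₀ k.2)) (b : G)).mp hb
  let c : K →* MulAut Q :=
    MonoidHom.mk (OneHom.mk (fun k => QuotientGroup.congr N N (act k) (hactN k))
      (MulEquiv.ext fun q => by
        obtain ⟨b, rfl⟩ := QuotientGroup.mk'_surjective N q
        simp))
      fun k l => MulEquiv.ext fun q => by
        obtain ⟨b, rfl⟩ := QuotientGroup.mk'_surjective N q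
        show QuotientGroup.mk' N (act (k * l) b) = QuotientGroup.mk' N (act k (act l b))
        rw [map_mul]
        rfl
  let ρ : K →* Module.End (ZMod p) (Additive Q) := actionEnd (p := p) c
  let mk : ∀ b, b ∈ B → Additive Q := fun b hb => Additive.ofMul (QuotientGroup.mk ⟨b, hb⟩)
  have hmk0 : ∀ b (hb : b ∈ B), mk b hb = 0 ↔ b ∈ N₀ := fun b hb => by
    show Additive.ofMul (QuotientGroup.mk (⟨b, hb⟩ : B) : Q) = 0 ↔ _
    rw [ofMul_eq_zero, QuotientGroup.eq_one_iff]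
    rfl
  have hmkadd : ∀ a b (ha : a ∈ B) (hb : b ∈ B), mk (a * b) (mul_mem ha hb) = mk a ha + mk b hb :=
    fun _ _ _ _ => rfl
  have hmksub : ∀ a b (ha : a ∈ B) (hb : b ∈ B),
      mk (a * b⁻¹) (mul_mem ha (inv_mem hb)) = mk a ha - mk b hb := fun a b ha hb => by
    rw [sub_eq_add_neg]; rfl
  have hmkcongr : ∀ a b (ha : a ∈ B) (hb : b ∈ B), a = b → mk a ha = mk b hb := fun a b ha hb h => by
    subst h; rfl
  have hmksurj : ∀ w : Additive Q, ∃ b, ∃ hb : b ∈ B, mk b hb = w := fun w => by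
    obtain ⟨b, hb⟩ := QuotientGroup.mk'_surjective N (Additive.toMul w)
    exact ⟨b, b.2, congrArg Additive.ofMul hb⟩
  have hBconj : ∀ k : K, ∀ b ∈ B, (k : G) * b * (k : G)⁻¹ ∈ B := fun k b hb =>
    (Subgroup.mem_normalizer_iff.mp (hKB k.2) b).mp hb
  have hρ : ∀ (k : K) b (hb : b ∈ B), ρ k (mk b hb) = mk ((k : G) * b * (k : G)⁻¹) (hBconj k b hb) :=
    fun _ _ _ => rfl
  have hsmul : ∀ (m : ZMod p) b (hb : b ∈ B), m • mk b hb = mk (b ^ m.val) (pow_mem hb _) := fun m b hb => by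
    conv_lhs => rw [← ZMod.natCast_zmod_val m, Nat.cast_smul_eq_nsmul]
    rfl
  -- the data for the linear statement
  have hRK : R ≤ K := hRS.1
  let Rs : Sylow p K := (hRS.2.1.comap_subtype (K := K)).toSylow hRS.2.2
  have hRs : ∀ r : K, r ∈ Rs ↔ (r : G) ∈ R := fun _ => Iff.rfl
  set K₁' := K₁.subgroupOf K with hK₁'
  have hBA : ∀ {b : G}, b ∈ A₀ → b ∈ B := fun h => hA₀B h
  let D₀ : Submodule (ZMod p) (Additive Q) :=
    { carrier := {w | ∃ b, ∃ hb : b ∈ A₀, mk b (hBA hb) = w}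
      add_mem' := by
        rintro _ _ ⟨a, ha, rfl⟩ ⟨b, hb, rfl⟩
        exact ⟨a * b, mul_mem ha hb, rfl⟩
      zero_mem' := ⟨1, one_mem A₀, rfl⟩
      smul_mem' := by
        rintro m _ ⟨b, hb, rfl⟩
        exact ⟨b ^ m.val, pow_mem hb _, (hsmul m b (hBA hb)).symm⟩ }
  set v' := mk v (hBA hvA₀) with hv'
  have hfix : ∀ r : K, (r : G) ∈ R → ρ r v' = v' := fun r hr => by
    rw [← sub_eq_zero, hv', hρ, ← hmksub, hmk0]
    exact hRv r hr
  have hspan : Submodule.span (ZMod p) (Set.range fun g : K => ρ g v') = ⊤ := by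
    set S' := Submodule.span (ZMod p) (Set.range fun g : K => ρ g v') with hS'
    refine Submodule.eq_top_iff'.2 fun w => ?_
    obtain ⟨b, hb, rfl⟩ := hmksurj w
    suffices h : ∀ b ∈ N₀ ⊔ Subgroup.closure {x | ∃ k ∈ K, x = k * v * k⁻¹}, ∀ hb : b ∈ B, mk b hb ∈ S' from
      h b (hgen hb) hb
    have hle : N₀ ⊔ Subgroup.closure {x | ∃ k ∈ K, x = k * v * k⁻¹} ≤ B :=
      sup_le hN₀B ((Subgroup.closure_le _).2 fun x ⟨k, hk, hx⟩ => hx ▸ hBconj ⟨k, hk⟩ v (hBA hvA₀))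
    intro b hbS
    rw [Subgroup.sup_eq_closure] at hbS
    induction hbS using Subgroup.closure_induction with
    | mem x hx =>
      intro hb
      rcases hx with hx | hx
      · rw [(hmk0 x hb).2 hx]; exact S'.zero_mem
      · have key : ∀ x ∈ Subgroup.closure {x | ∃ k ∈ K, x = k * v * k⁻¹}, ∀ hb : x ∈ B, mk x hb ∈ S' := by
          intro x hx
          induction hx using Subgroup.closure_induction with
          | mem x hx =>
            intro hb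
            obtain ⟨k, hk, rfl⟩ := hx
            exact Submodule.subset_span ⟨⟨k, hk⟩, rfl⟩
          | one => intro hb; rw [(hmk0 1 hb).2 (one_mem _)]; exact S'.zero_mem
          | mul x y hx hy ihx ihy =>
            intro hb
            exact S'.add_mem (ihx (hle (Subgroup.mem_sup_right hx))) (ihy (hle (Subgroup.mem_sup_right hy)))
          | inv x hx ihx =>
            intro hb
            exact S'.neg_mem (ihx (hle (Subgroup.mem_sup_right hx)))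
        exact key x hx hb
    | one => intro hb; rw [(hmk0 1 hb).2 (one_mem _)]; exact S'.zero_mem
    | mul x y hx hy ihx ihy =>
      intro hb
      rw [← Subgroup.sup_eq_closure] at hx hy
      exact S'.add_mem (ihx (hle hx)) (ihy (hle hy))
    | inv x hx ihx =>
      intro hb
      rw [← Subgroup.sup_eq_closure] at hx
      exact S'.neg_mem (ihx (hle hx))
  have hD₀ : ∀ g ∈ K₁', ∀ w ∈ D₀, ρ g w ∈ D₀ := by
    rintro g hg _ ⟨b, hb, rfl⟩
    exact ⟨(g : G) * b * (g : G)⁻¹, (Subgroup.mem_normalizer_iff.mp (hK₁A₀ hg) b).mp hb,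
      (hρ g b (hBA hb)).symm⟩
  have hxρ : ∃ x ∈ Rs, (ρ x - 1) * (ρ x - 1) = 0 ∧ ρ x ≠ 1 := by
    obtain ⟨x, hxR, hq, b₁, hb₁, hne⟩ := hx
    refine ⟨⟨x, hRK hxR⟩, hxR, LinearMap.ext fun w => ?_, fun h => hne ?_⟩
    · obtain ⟨b, hb, rfl⟩ := hmksurj w
      simp only [Module.End.mul_apply, LinearMap.sub_apply, Module.End.one_apply, LinearMap.zero_apply]
      rw [hρ, ← hmksub, hρ, ← hmksub, hmk0]
      exact hq b hb
    · have h1 := LinearMap.congr_fun h (mk b₁ hb₁)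
      rw [Module.End.one_apply, hρ, ← sub_eq_zero, ← hmksub, hmk0] at h1
      exact h1
  have hmax' : ∀ L : Subgroup K, (Rs : Subgroup K) ≤ L → L ≠ ⊤ → L ≤ K₁' := by
    intro L hL hne
    have h1 : L.map K.subtype < K := lt_of_le_of_ne (Subgroup.map_subtype_le L) fun h => hne
      (Subgroup.map_injective K.subtype_injective (by rw [h, ← MonoidHom.range_eq_map, Subgroup.range_subtype]))
    have h2 := hmax (L.map K.subtype)
      (show R ≤ L.map K.subtype from fun r hr => ⟨⟨r, hRK hr⟩, hL (show (⟨r, hRK hr⟩ : K) ∈ Rs from hr), rfl⟩) h1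
    exact fun l hl => h2 ⟨l, hl, rfl⟩
  have hK₁top : K₁' ≠ ⊤ := fun h => hK₁K.not_ge (Subgroup.subgroupOf_eq_top.mp h)
  obtain ⟨U₀, h, t, V₂, v₀, u₀, f, s, hU₀R, hhK, hhU, ht, hV₂U, hV₂h, hind, hUact, hU1, hhv, hhu, hfD, hfV, hs,
      hhf⟩ :=
    exists_witness hp ρ Rs hK₁top (fun r hr => hRK₁ hr) hmax' hD₀ (v := v') ⟨v, hvA₀, rfl⟩
      (fun r hr => hfix r hr) hspan hxρ
  -- back in `G`
  set UG := U₀.map K.subtype ⊔ B with hUG
  have hUR : UG ≤ R := sup_le (fun x ⟨u, hu, hx⟩ => hx ▸ hU₀R hu) hBR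
  have hhB : (h : G) ∈ Subgroup.normalizer (B : Set G) := hKB h.2
  have hhUG : (h : G) ∈ Subgroup.normalizer (UG : Set G) := by
    rw [mem_normalizer_iff_conjOf, hUG, conjOf, Subgroup.map_sup]
    refine congrArg₂ (· ⊔ ·) ?_ (mem_normalizer_iff_conjOf.mp hhB)
    refine mem_normalizer_iff_conjOf.mp ?_
    exact Subgroup.le_normalizer_map (H := U₀) K.subtype ⟨h, hhU, rfl⟩
  obtain ⟨n, hnH, hn⟩ := hctrl UG hUR h hhK hhUG
  have hBUG : B ≤ UG := le_sup_right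
  have hnB : ∀ b ∈ B, n * b * n⁻¹ = (h : G) * b * (h : G)⁻¹ := fun b hb => hn b (hBUG hb)
  have hnN : ∀ {T : Subgroup G}, T ≤ UG → (h : G) ∈ Subgroup.normalizer (T : Set G) →
      n ∈ Subgroup.normalizer (T : Set G) := fun {T} hT hh =>
    mem_normalizer_of_forall fun d hd => by
      rw [hn d (hT hd)]
      exact (Subgroup.mem_normalizer_iff.mp hh d).mp hd
  -- subgroups of `B` from invariant subspaces
  let pre : Submodule (ZMod p) (Additive Q) → Subgroup G := fun M =>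
    { carrier := {b | ∃ hb : b ∈ B, mk b hb ∈ M}
      one_mem' := ⟨one_mem B, by rw [(hmk0 1 (one_mem B)).2 (one_mem _)]; exact M.zero_mem⟩
      mul_mem' := fun ⟨ha, ha'⟩ ⟨hb, hb'⟩ => ⟨mul_mem ha hb, M.add_mem ha' hb'⟩
      inv_mem' := fun ⟨ha, ha'⟩ => ⟨inv_mem ha, M.neg_mem ha'⟩ }
  have hpre : ∀ (M : Submodule (ZMod p) (Additive Q)) b, b ∈ pre M ↔ ∃ hb : b ∈ B, mk b hb ∈ M :=
    fun _ _ => Iff.rfl
  have hpreB : ∀ M, pre M ≤ B := fun M b hb => ((hpre M b).1 hb).1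
  have hpren : ∀ (k : K) M, (∀ w ∈ M, ρ k w ∈ M) → (k : G) ∈ Subgroup.normalizer (pre M : Set G) :=
    fun k M hM => mem_normalizer_of_forall fun d hd => by
      obtain ⟨hdB, hdM⟩ := (hpre M d).1 hd
      exact (hpre M _).2 ⟨hBconj k d hdB, hρ k d hdB ▸ hM _ hdM⟩
  -- the action of `UG`
  have hBtriv : ∀ (b : K), (b : G) ∈ B → ρ b = 1 := fun b hb => LinearMap.ext fun w => by
    obtain ⟨a, ha, rfl⟩ := hmksurj w
    rw [Module.End.one_apply, hρ, ← sub_eq_zero, ← hmksub, hmk0]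
    exact hcomm _ hb _ ha
  have hUGK : UG ≤ K := hUR.trans hRK
  have hUGact : ∀ (g : G) (hg : g ∈ UG), ∃ u ∈ U₀, ρ ⟨g, hUGK hg⟩ = ρ u := by
    intro g hg
    have hg' : g ∈ ((B ⊔ U₀.map K.subtype : Subgroup G) : Set G) := by rw [sup_comm]; exact hg
    rw [Subgroup.coe_mul_of_right_le_normalizer_left B (U₀.map K.subtype)
      ((Subgroup.map_subtype_le U₀).trans hKB)] at hg'
    obtain ⟨b, hb, _, ⟨u, hu, rfl⟩, rfl⟩ := hg'
    refine ⟨u, hu, ?_⟩
    rw [show (⟨b * (K.subtype u), hUGK hg⟩ : K) = ⟨b, hBK hb⟩ * u from Subtype.ext rfl, map_mul,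
      hBtriv ⟨b, hBK hb⟩ hb, one_mul]
  set F₂ := V₂ ⊔ Submodule.span (ZMod p) {v₀, u₀} with hF₂
  have hF₂iff : ∀ w, w ∈ F₂ → ∃ x : Fin 2 → ZMod p, w - (x 0 • v₀ + x 1 • u₀) ∈ V₂ := by
    intro w hw
    obtain ⟨a, ha, b, hb, rfl⟩ := Submodule.mem_sup.1 hw
    obtain ⟨c, d, rfl⟩ := Submodule.mem_span_pair.1 hb
    exact ⟨![c, d], by simpa using ha⟩
  have huniq : ∀ w (x y : Fin 2 → ZMod p), w - (x 0 • v₀ + x 1 • u₀) ∈ V₂ → w - (y 0 • v₀ + y 1 • u₀) ∈ V₂ →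
      x = y := by
    intro w x y hx hy
    have := V₂.sub_mem hy hx
    rw [show w - (y 0 • v₀ + y 1 • u₀) - (w - (x 0 • v₀ + x 1 • u₀)) = (x 0 - y 0) • v₀ + (x 1 - y 1) • u₀ by
      rw [sub_smul, sub_smul]; abel] at this
    obtain ⟨h0, h1⟩ := hind _ _ this
    funext i
    fin_cases i
    · exact sub_eq_zero.1 h0
    · exact sub_eq_zero.1 h1
  set W := pre F₂ with hW
  have hWU : W ≤ UG := (hpreB _).trans hBUG
  have hWmem : ∀ b : W, ∃ x : Fin 2 → ZMod p, mk b (hpreB _ b.2) - (x 0 • v₀ + x 1 • u₀) ∈ V₂ :=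
    fun b => hF₂iff _ ((hpre _ _).1 b.2).2
  choose co hco using hWmem
  let τ : W →* Multiplicative (Fin 2 → ZMod p) :=
    MonoidHom.mk (OneHom.mk (fun b => Multiplicative.ofAdd (co b)) (by
      rw [show (1 : Multiplicative (Fin 2 → ZMod p)) = Multiplicative.ofAdd 0 from rfl]
      refine congrArg Multiplicative.ofAdd (huniq _ _ _ (hco 1) ?_)
      rw [(hmk0 ((1 : W) : G) (hpreB _ (one_mem W))).2 (one_mem _)]
      simp))
      fun a b => by
        rw [← ofAdd_add]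
        refine congrArg Multiplicative.ofAdd (huniq _ _ (co a + co b) (hco (a * b)) ?_)
        have := V₂.add_mem (hco a) (hco b)
        convert this using 1
        rw [show mk ((a * b : W) : G) (hpreB _ (a * b).2) = mk a (hpreB _ a.2) + mk b (hpreB _ b.2) from rfl]
        simp only [Pi.add_apply, add_smul]
        abel
  have hτ : ∀ b, (τ b).toAdd = co b := fun _ => rfl
  have hτsurj : Function.Surjective τ := by
    intro x
    obtain ⟨b, hb, hbw⟩ := hmksurj (x.toAdd 0 • v₀ + x.toAdd 1 • u₀)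
    have hbW : b ∈ W := (hpre _ _).2 ⟨hb, by
      rw [hbw]
      exact Submodule.mem_sup_right (Submodule.mem_span_pair.2 ⟨_, _, rfl⟩)⟩
    refine ⟨⟨b, hbW⟩, congrArg Multiplicative.ofAdd (huniq _ _ x.toAdd (hco ⟨b, hbW⟩) ?_)⟩
    show mk b _ - _ ∈ V₂
    rw [hbw, sub_self]
    exact V₂.zero_mem
  -- the matrix of an element on the factor
  have hmat : ∀ (k : K) (M : SpecialLinearGroup (Fin 2) (ZMod p)), (∀ w ∈ V₂, ρ k w ∈ V₂) →
      ρ k v₀ - (M.1 0 0 • v₀ + M.1 1 0 • u₀) ∈ V₂ → ρ k u₀ - (M.1 0 1 • v₀ + M.1 1 1 • u₀) ∈ V₂ →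
      (∀ w ∈ F₂, ρ k w ∈ F₂) ∧ ∀ (b b' : W), mk b' (hpreB _ b'.2) = ρ k (mk b (hpreB _ b.2)) →
        (τ b').toAdd = M.1.mulVec (τ b).toAdd := by
    intro k M hV hv hu
    have hgenmem : ∀ a d : ZMod p, a • v₀ + d • u₀ ∈ F₂ := fun a d =>
      Submodule.mem_sup_right (Submodule.mem_span_pair.2 ⟨_, _, rfl⟩)
    refine ⟨?_, fun b b' hbb' => ?_⟩
    · have : F₂ ≤ F₂.comap (ρ k) := by
        refine sup_le (fun w hw => Submodule.mem_sup_left (hV w hw)) (Submodule.span_le.2 ?_)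
        rintro w (rfl | rfl)
        · have := F₂.add_mem (Submodule.mem_sup_left hv) (hgenmem (M.1 0 0) (M.1 1 0))
          rwa [sub_add_cancel] at this
        · have := F₂.add_mem (Submodule.mem_sup_left hu) (hgenmem (M.1 0 1) (M.1 1 1))
          rwa [sub_add_cancel] at this
      exact fun w hw => this hw
    · rw [hτ, hτ]
      refine huniq _ _ _ (hco b') ?_
      rw [hbb']
      have h1 := hV _ (hco b)
      set x := co b with hx
      rw [map_sub, map_add, map_smul, map_smul] at h1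
      have h2 := V₂.add_mem h1 (V₂.add_mem (V₂.smul_mem (x 0) hv) (V₂.smul_mem (x 1) hu))
      convert h2 using 1
      simp only [Matrix.mulVec, dotProduct, Fin.sum_univ_two, add_smul, smul_sub, smul_add, smul_smul]
      rw [mul_comm (x 0) (M.1 0 0), mul_comm (x 0) (M.1 1 0), mul_comm (x 1) (M.1 0 1), mul_comm (x 1) (M.1 1 1)]
      abel
  have hup : ∀ (g : G) (hg : g ∈ UG), ∀ c : ZMod p, (∃ u ∈ U₀, ρ ⟨g, hUGK hg⟩ = ρ u ∧
      ρ u u₀ - (u₀ + c • v₀) ∈ V₂) → g ∈ Subgroup.normalizer (W : Set G) ∧ ∀ (b : W) (hb : g * b * g⁻¹ ∈ W),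
        (τ ⟨g * b * g⁻¹, hb⟩).toAdd = (upT c).1.mulVec (τ b).toAdd := by
    rintro g hg c ⟨u, hu, hgu, huu⟩
    obtain ⟨hM₁, hM₂⟩ := hmat ⟨g, hUGK hg⟩ (upT c) (fun w hw => by rw [hgu]; exact hV₂U u hu w hw)
      (by rw [hgu]; simpa [upT] using (hUact u hu).1)
      (by rw [hgu]; simpa [upT, add_comm] using huu)
    exact ⟨hpren ⟨g, hUGK hg⟩ _ hM₁, fun b hb => hM₂ b ⟨_, hb⟩ (hρ ⟨g, hUGK hg⟩ b (hpreB _ b.2)).symm⟩
  have hup' : ∀ (g : G) (hg : g ∈ UG), ∃ c : ZMod p, g ∈ Subgroup.normalizer (W : Set G) ∧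
      ∀ (b : W) (hb : g * b * g⁻¹ ∈ W), (τ ⟨g * b * g⁻¹, hb⟩).toAdd = (upT c).1.mulVec (τ b).toAdd := by
    intro g hg
    obtain ⟨u, hu, hgu⟩ := hUGact g hg
    obtain ⟨c, hc⟩ := (hUact u hu).2
    exact ⟨c, hup g hg c ⟨u, hu, hgu, hc⟩⟩
  obtain ⟨hhF₂, hhτ⟩ := hmat h (dgT t) hV₂h
    (by simpa [dgT, -Units.val_inv_eq_inv_val] using hhv)
    (by simpa [dgT, -Units.val_inv_eq_inv_val] using hhu)
  have hnW : n ∈ Subgroup.normalizer (W : Set G) := hnN hWU (hpren h _ hhF₂)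
  refine ⟨involves_fOver hp H UG W n t ht (hRS.2.1.to_le hUR) (hUR.trans hRH) hnH hWU (hnN le_rfl hhUG) hnW
    (fun g hg => (hup' g hg).choose_spec.1) τ hτsurj (fun b => hhτ b _ ?_) (fun g hg => ?_) ?_, ?_⟩
  · rw [hρ]
    exact hmkcongr _ _ _ _ (hnB b (hpreB _ b.2))
  · obtain ⟨c, -, hc⟩ := hup' g hg
    exact ⟨c, fun b => hc b _⟩
  · obtain ⟨u, hu, c, hc0, huu⟩ := hU1
    have hg : (u : G) ∈ UG := Subgroup.mem_sup_left ⟨u, hu, rfl⟩
    exact ⟨u, hg, c, hc0, fun b => (hup u hg c ⟨u, hu, rfl, huu⟩).2 b _⟩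
  -- the eigenvector
  obtain ⟨z, hz, hzf⟩ := hfD
  replace hz : z ∈ A₀ := hz
  set A' := A₀ ⊓ pre V₂ with hA'
  have hA₀UG : A₀ ≤ UG := hA₀B.trans hBUG
  have hhA₀ : (h : G) ∈ Subgroup.normalizer (A₀ : Set G) := hK₁A₀ hhK
  have hhA' : (h : G) ∈ Subgroup.normalizer (A' : Set G) := mem_normalizer_of_forall fun d hd =>
    ⟨(Subgroup.mem_normalizer_iff.mp hhA₀ d).mp hd.1,
      (Subgroup.mem_normalizer_iff.mp (hpren h _ hV₂h) d).mp hd.2⟩
  have hzB : z ∈ B := hA₀B hz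
  have hnz : n * z * n⁻¹ ∈ B := hnB z hzB ▸ hBconj h z hzB
  have hzs : z ^ (s : ZMod p).val ∈ B := pow_mem hzB _
  have hzs' : (z ^ (s : ZMod p).val)⁻¹ ∈ B := inv_mem hzs
  obtain ⟨c, hcA, hc1, hcp, hceig⟩ := exists_eigen hA₀ab (hRS.2.1.to_le (hA₀B.trans hBR))
    (hnN hA₀UG hhA₀) (inf_le_left : A' ≤ A₀) (hnN (inf_le_left.trans hA₀UG) hhA') (s := (s : ZMod p).val) hz
    (fun hzA' => hfV (by rw [← hzf]; exact ((hpre _ _).1 hzA'.2).2))
    ⟨mul_mem ((Subgroup.mem_normalizer_iff.mp (hnN hA₀UG hhA₀) z).mp hz) (Subgroup.inv_mem _ (Subgroup.pow_mem A₀ hz _)),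
      (hpre _ _).2 ⟨mul_mem hnz hzs', by
        rw [hmksub _ _ hnz hzs, ← hsmul _ _ hzB, hmkcongr _ _ _ (hBconj h z hzB) (hnB z hzB), ← hρ h z hzB, hzf]
        exact hhf⟩⟩
  exact ⟨c, hcA, hc1, hcp, n, hnH, s, hs, hceig⟩

end CfsgLib.ZJFailure
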